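import Mathlib

/-!
# Orbit representatives of a semiregular permutation of prime-power-like period

`π` is a permutation of a finite set with `π ^ M = 1`, all of whose powers `π ^ i` with `M ∤ i` have
`e` as their only fixed point.  Then `|S| = 1 + M * |T|` for a set `T` of representatives of the
nontrivial orbits.
-/

set_option autoImplicit false

namespace Cfsg.Agent.Lib.ShultGross

variable {S : Type*} [Fintype S] [DecidableEq S]

theorem exists_orbit_reps (π : Equiv.Perm S) (e : S) (M : ℕ) (hM0 : M ≠ 0)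
    (hM : π ^ M = 1) (hfix : ∀ i : ℕ, ¬ M ∣ i → ∀ x, (π ^ i) x = x → x = e) :
    ∀ Inv : Finset S, e ∉ Inv → (∀ x ∈ Inv, π x ∈ Inv) →
      ∃ T : Finset S, T ⊆ Inv ∧ (∀ x ∈ Inv, ∃ i : ℕ, ∃ t ∈ T, x = (π ^ i) t) ∧ M * T.card = Inv.card := by
  intro Inv
  induction Inv using Finset.strongInduction with
  | H Inv ih =>
    intro he hinv
    by_cases hemp : Inv = ∅
    · subst hemp
      exact ⟨∅, by simp, by simp, by simp⟩
    obtain ⟨x, hx⟩ := Finset.nonempty_iff_ne_empty.mpr hemp
    have hpow : ∀ i : ℕ, (π ^ i) x ∈ Inv := by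
      intro i
      induction i with
      | zero => simpa using hx
      | succ i ih' =>
        rw [pow_succ', Equiv.Perm.mul_apply]
        exact hinv _ ih'
    have hxe : x ≠ e := fun h => he (h ▸ hx)
    set O : Finset S := (Finset.range M).image (fun i => (π ^ i) x) with hO
    have hlt' : ∀ i j : ℕ, i < j → j < M → (π ^ i) x ≠ (π ^ j) x := by
      intro i j hij hj heq
      have h1 : (π ^ (j - i)) x = x := by
        have h2 : j = (j - i) + i := by omega
        have h3 : (π ^ i) ((π ^ (j - i)) x) = (π ^ i) x := by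
          rw [← Equiv.Perm.mul_apply, ← pow_add, add_comm, ← h2, heq]
        exact (π ^ i).injective h3
      have h4 : ¬ M ∣ j - i := by
        intro h
        have := Nat.le_of_dvd (by omega) h
        omega
      exact hxe (hfix _ h4 x h1)
    have hinj : Set.InjOn (fun i => (π ^ i) x) (Finset.range M : Set ℕ) := by
      intro i hi j hj hij
      simp only [Finset.coe_range, Set.mem_Iio] at hi hj
      simp only at hij
      by_contra hne
      rcases lt_or_gt_of_ne hne with hlt | hlt
      · exact hlt' i j hlt hj hij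
      · exact hlt' j i hlt hi hij.symm
    have hOcard : O.card = M := by
      rw [hO, Finset.card_image_of_injOn hinj, Finset.card_range]
    have hOsub : O ⊆ Inv := by
      intro y hy
      obtain ⟨i, _, rfl⟩ := Finset.mem_image.mp hy
      exact hpow i
    have hOinv : ∀ y ∈ O, π y ∈ O := by
      intro y hy
      obtain ⟨i, hi, rfl⟩ := Finset.mem_image.mp hy
      rw [← Equiv.Perm.mul_apply, ← pow_succ']
      by_cases h : i + 1 = M
      · rw [h, hM]
        refine Finset.mem_image.mpr ⟨0, ?_, by simp⟩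
        exact Finset.mem_range.mpr (Nat.pos_of_ne_zero hM0)
      · refine Finset.mem_image.mpr ⟨i + 1, ?_, rfl⟩
        have := Finset.mem_range.mp hi
        exact Finset.mem_range.mpr (by omega)
    have hxO : x ∈ O := Finset.mem_image.mpr ⟨0, Finset.mem_range.mpr (Nat.pos_of_ne_zero hM0), by simp⟩
    set Inv' := Inv \ O with hInv'
    have hlt : Inv' ⊂ Inv := by
      refine Finset.ssubset_iff_subset_ne.mpr ⟨Finset.sdiff_subset, fun h => ?_⟩
      have : x ∈ Inv' := h ▸ hx
      exact (Finset.mem_sdiff.mp this).2 hxO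
    have hinv' : ∀ y ∈ Inv', π y ∈ Inv' := by
      intro y hy
      obtain ⟨hy1, hy2⟩ := Finset.mem_sdiff.mp hy
      refine Finset.mem_sdiff.mpr ⟨hinv y hy1, fun h => hy2 ?_⟩
      -- `π` permutes the finite set `O`
      obtain ⟨i, hi, hiy⟩ := Finset.mem_image.mp h
      have hi' := Finset.mem_range.mp hi
      by_cases hi0 : i = 0
      · subst hi0
        have h1 : π ((π ^ (M - 1)) x) = π y := by
          rw [← Equiv.Perm.mul_apply, ← pow_succ']
          have : M - 1 + 1 = M := by omega
          rw [this, hM, ← hiy]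
          simp
        rw [← π.injective h1]
        exact Finset.mem_image.mpr ⟨M - 1, Finset.mem_range.mpr (by omega), rfl⟩
      · have h1 : π ((π ^ (i - 1)) x) = π y := by
          rw [← Equiv.Perm.mul_apply, ← pow_succ']
          have : i - 1 + 1 = i := by omega
          rw [this, hiy]
        rw [← π.injective h1]
        exact Finset.mem_image.mpr ⟨i - 1, Finset.mem_range.mpr (by omega), rfl⟩
    obtain ⟨T', hT'sub, hT'cov, hT'card⟩ := ih Inv' hlt (fun h => he (Finset.mem_sdiff.mp h).1) hinv'
    have hxT' : x ∉ T' := fun h => (Finset.mem_sdiff.mp (hT'sub h)).2 hxO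
    refine ⟨insert x T', ?_, ?_, ?_⟩
    · intro y hy
      rcases Finset.mem_insert.mp hy with rfl | hy
      · exact hx
      · exact (Finset.mem_sdiff.mp (hT'sub hy)).1
    · intro y hy
      by_cases hyO : y ∈ O
      · obtain ⟨i, _, rfl⟩ := Finset.mem_image.mp hyO
        exact ⟨i, x, Finset.mem_insert_self _ _, rfl⟩
      · obtain ⟨i, t, ht, hyt⟩ := hT'cov y (Finset.mem_sdiff.mpr ⟨hy, hyO⟩)
        exact ⟨i, t, Finset.mem_insert_of_mem ht, hyt⟩
    · rw [Finset.card_insert_of_notMem hxT', mul_add, mul_one, hT'card, hInv',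
        Finset.card_sdiff_of_subset hOsub, hOcard]
      have : M ≤ Inv.card := hOcard ▸ Finset.card_le_card hOsub
      omega

/-- The orbit count. -/
theorem card_eq_of_semiregular (π : Equiv.Perm S) (e : S) (M : ℕ) (hM0 : M ≠ 0)
    (hM : π ^ M = 1) (hfix : ∀ i : ℕ, ¬ M ∣ i → ∀ x, (π ^ i) x = x → x = e) (he : π e = e) :
    ∃ T : Finset S, e ∉ T ∧ (∀ x, x ≠ e → ∃ i : ℕ, ∃ t ∈ T, x = (π ^ i) t) ∧
      M * T.card + 1 = Fintype.card S := by
  have hinv : ∀ x ∈ (Finset.univ.erase e), π x ∈ (Finset.univ.erase e : Finset S) := by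
    intro x hx
    refine Finset.mem_erase.mpr ⟨fun h => ?_, Finset.mem_univ _⟩
    have h1 : π x = π e := by rw [h, he]
    exact (Finset.mem_erase.mp hx).1 (π.injective h1)
  obtain ⟨T, hT, hcov, hcard⟩ := exists_orbit_reps π e M hM0 hM hfix (Finset.univ.erase e)
    (Finset.notMem_erase _ _) hinv
  refine ⟨T, fun h => (Finset.mem_erase.mp (hT h)).1 rfl, ?_, ?_⟩
  · intro x hx
    exact hcov x (Finset.mem_erase.mpr ⟨hx, Finset.mem_univ _⟩)
  · rw [hcard, Finset.card_erase_of_mem (Finset.mem_univ _), Finset.card_univ]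
    have : 0 < Fintype.card S := Fintype.card_pos_iff.mpr ⟨e⟩
    omega

end Cfsg.Agent.Lib.ShultGross
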