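import Mathlib
import Cfsg.Agent.Lib.Ward.Rep
import Cfsg.Agent.Lib.ShultGross.Orbit

/-!
# Representations of groups with scalar commutators (the Hall--Higman computation)

`E` acts on `W` with scalar commutators and with scalar centre; `τ` is an operator of order dividing
`M` normalising the image of `E`, inducing a semiregular action on `E / scalars`.  Without any
character theory or lifting to characteristic zero we show: `τ` has a nonzero fixed vector unless
`|E : scalars| = d²` with `d + 1 ≤ M`.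
-/

set_option autoImplicit false
set_option linter.unusedSectionVars false
set_option linter.style.haveILetI false
set_option linter.unusedVariables false

namespace Cfsg.Agent.Lib.ShultGross

open Cfsg.Agent.Lib.Ward

section Scal

variable {k : Type*} [Field k] {W : Type*} [AddCommGroup W] [Module k W]

/-- Scalar operators. -/
def IsScal (f : Module.End k W) : Prop := ∃ c : k, f = c • 1

theorem IsScal.one : IsScal (1 : Module.End k W) := ⟨1, by simp⟩

theorem IsScal.mul {f g : Module.End k W} (hf : IsScal f) (hg : IsScal g) : IsScal (f * g) := by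
  obtain ⟨c, rfl⟩ := hf
  obtain ⟨d, rfl⟩ := hg
  exact ⟨c * d, by rw [smul_mul_assoc, mul_smul_comm, mul_one, smul_smul]⟩

theorem IsScal.comm {f g : Module.End k W} (hf : IsScal f) : f * g = g * f := by
  obtain ⟨c, rfl⟩ := hf
  simp

variable {E : Type*} [Group E]

theorem rho_mul_inv (ρ : E →* Module.End k W) (x : E) : ρ x * ρ x⁻¹ = 1 := by
  rw [← map_mul, mul_inv_cancel, map_one]

theorem rho_inv_mul (ρ : E →* Module.End k W) (x : E) : ρ x⁻¹ * ρ x = 1 := by
  rw [← map_mul, inv_mul_cancel, map_one]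

variable [Nontrivial W]

theorem one_ne_zero_end : (1 : Module.End k W) ≠ 0 := one_ne_zero

/-- The scalar subgroup. -/
def scalarSub (ρ : E →* Module.End k W) : Subgroup E where
  carrier := {x | IsScal (ρ x)}
  mul_mem' := by
    intro a b ha hb
    show IsScal (ρ (a * b))
    rw [map_mul]
    exact ha.mul hb
  one_mem' := by
    show IsScal (ρ 1)
    rw [map_one]
    exact IsScal.one
  inv_mem' := by
    rintro x ⟨c, hc⟩
    have h1 := rho_mul_inv ρ x
    rw [hc, smul_mul_assoc, one_mul] at h1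
    have hc0 : c ≠ 0 := by
      rintro rfl
      rw [zero_smul] at h1
      exact one_ne_zero_end h1.symm
    refine ⟨c⁻¹, ?_⟩
    have h2 : c⁻¹ • (c • ρ x⁻¹) = c⁻¹ • (1 : Module.End k W) := by rw [h1]
    rwa [smul_smul, inv_mul_cancel₀ hc0, one_smul] at h2

theorem mem_scalarSub {ρ : E →* Module.End k W} {x : E} : x ∈ scalarSub ρ ↔ IsScal (ρ x) := Iff.rfl

instance scalarSub_normal (ρ : E →* Module.End k W) : (scalarSub ρ).Normal := by
  constructor
  rintro x ⟨c, hc⟩ g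
  refine ⟨c, ?_⟩
  rw [map_mul, map_mul, hc, mul_smul_comm, smul_mul_assoc, mul_one, rho_mul_inv]

end Scal

/-- The hypotheses of the computation. -/
structure HHData {k W E : Type*} [Field k] [AddCommGroup W] [Module k W] [Group E]
    (ρ : E →* Module.End k W) (τ : Module.End k W) (α : MulAut E) (M : ℕ) : Prop where
  hM : (M : k) ≠ 0
  hτM : τ ^ M = 1
  hτρ : ∀ x, τ * ρ x = ρ (α x) * τ
  hαM : α ^ M = 1
  hE : (Nat.card E : k) ≠ 0
  hcomm : ∀ x y, IsScal (ρ (x * y * x⁻¹ * y⁻¹))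
  hrad : ∀ x, (∀ y, ρ x * ρ y = ρ y * ρ x) → IsScal (ρ x)
  hfpf : ∀ i : ℕ, ¬ M ∣ i → ∀ x, IsScal (ρ ((α ^ i) x * x⁻¹)) → IsScal (ρ x)

section Irr

variable {k W E : Type*} [Field k] [IsAlgClosed k] [AddCommGroup W] [Module k W]
  [FiniteDimensional k W] [Nontrivial W] [Group E] [Fintype E]
  {ρ : E →* Module.End k W} {τ : Module.End k W} {α : MulAut E} {M : ℕ}

/-- The averaging operator. -/
noncomputable def psi (ρ : E →* Module.End k W) (X : Module.End k W) : Module.End k W :=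
  ∑ g : E, ρ g * X * ρ g⁻¹

theorem psi_comm (ρ : E →* Module.End k W) (X : Module.End k W) (x : E) :
    ρ x * psi ρ X = psi ρ X * ρ x := by
  unfold psi
  rw [Finset.mul_sum, Finset.sum_mul]
  refine Fintype.sum_equiv (Equiv.mulLeft x) _ _ ?_
  intro g
  have h1 : ρ (x * g)⁻¹ * ρ x = ρ g⁻¹ := by
    rw [← map_mul]
    congr 1
    group
  simp only [Equiv.coe_mulLeft]
  rw [mul_assoc (ρ (x * g) * X), h1, map_mul]
  simp only [mul_assoc]

/-- `psi` of a commuting operator. -/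
theorem psi_comm_tau (hτρ : ∀ x, τ * ρ x = ρ (α x) * τ) {X : Module.End k W} (hX : τ * X = X * τ) :
    τ * psi ρ X = psi ρ X * τ := by
  unfold psi
  rw [Finset.mul_sum, Finset.sum_mul]
  refine Fintype.sum_equiv α.toEquiv _ _ ?_
  intro g
  have h1 : ρ (α g)⁻¹ * τ = τ * ρ g⁻¹ := by
    rw [hτρ g⁻¹, map_inv α]
  calc τ * (ρ g * X * ρ g⁻¹) = (τ * ρ g) * X * ρ g⁻¹ := by simp only [mul_assoc]
    _ = ρ (α g) * (τ * X) * ρ g⁻¹ := by rw [hτρ]; simp only [mul_assoc]
    _ = ρ (α g) * X * (τ * ρ g⁻¹) := by rw [hX]; simp only [mul_assoc]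
    _ = ρ (α g) * X * ρ (α g)⁻¹ * τ := by rw [← h1]; simp only [mul_assoc]

/-- The commutator scalars. -/
noncomputable def cf (hc : ∀ x y, IsScal (ρ (x * y * x⁻¹ * y⁻¹))) (x y : E) : k := (hc x y).choose

theorem cf_spec (hc : ∀ x y, IsScal (ρ (x * y * x⁻¹ * y⁻¹))) (x y : E) :
    ρ (x * y * x⁻¹ * y⁻¹) = cf hc x y • 1 := (hc x y).choose_spec

theorem cf_conj (hc : ∀ x y, IsScal (ρ (x * y * x⁻¹ * y⁻¹))) (x y : E) :
    ρ x * ρ y * ρ x⁻¹ = cf hc x y • ρ y := by
  have h1 : x * y * x⁻¹ = (x * y * x⁻¹ * y⁻¹) * y := by group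
  rw [← map_mul, ← map_mul, h1, map_mul, cf_spec, smul_mul_assoc, one_mul]

theorem rho_ne_zero (ρ : E →* Module.End k W) (x : E) : ρ x ≠ 0 := by
  intro h
  have h1 := rho_mul_inv ρ x
  rw [h, zero_mul] at h1
  exact one_ne_zero_end h1.symm

theorem cf_mul (hc : ∀ x y, IsScal (ρ (x * y * x⁻¹ * y⁻¹))) (x x' y : E) :
    cf hc (x * x') y = cf hc x y * cf hc x' y := by
  have h1 := cf_conj hc (x * x') y
  have h2 : ρ (x * x') * ρ y * ρ (x * x')⁻¹ = ρ x * (ρ x' * ρ y * ρ x'⁻¹) * ρ x⁻¹ := by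
    rw [mul_inv_rev, map_mul, map_mul]
    simp only [mul_assoc]
  rw [h2, cf_conj hc x' y, mul_smul_comm, smul_mul_assoc, cf_conj hc x y, smul_smul] at h1
  have h3 : (cf hc x' y * cf hc x y - cf hc (x * x') y) • ρ y = 0 := by
    rw [sub_smul, h1, sub_self]
  rcases smul_eq_zero.mp h3 with h4 | h4
  · rw [mul_comm]
    exact (sub_eq_zero.mp h4).symm
  · exact absurd h4 (rho_ne_zero ρ y)

theorem cf_one (hc : ∀ x y, IsScal (ρ (x * y * x⁻¹ * y⁻¹))) (y : E) : cf hc 1 y = 1 := by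
  have h1 := cf_mul hc 1 1 y
  rw [mul_one] at h1
  have h2 : cf hc 1 y ≠ 0 := by
    intro h
    have h3 := cf_spec hc 1 y
    rw [h, zero_smul] at h3
    exact rho_ne_zero ρ _ h3
  exact (mul_eq_left₀ h2).mp h1.symm

theorem cf_eq_one_iff (hc : ∀ x y, IsScal (ρ (x * y * x⁻¹ * y⁻¹))) (x y : E) :
    cf hc x y = 1 ↔ ρ x * ρ y = ρ y * ρ x := by
  have hinv : ρ x⁻¹ * ρ x = 1 := rho_inv_mul ρ x
  constructor
  · intro h
    have h1 := cf_conj hc x y
    rw [h, one_smul] at h1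
    calc ρ x * ρ y = (ρ x * ρ y * ρ x⁻¹) * ρ x := by
          rw [mul_assoc (ρ x * ρ y), hinv, mul_one]
      _ = ρ y * ρ x := by rw [h1]
  · intro h
    have h1 := cf_conj hc x y
    rw [h, mul_assoc, rho_mul_inv, mul_one] at h1
    have h2 : (cf hc x y - 1) • ρ y = 0 := by
      rw [sub_smul, one_smul, ← h1, sub_self]
    rcases smul_eq_zero.mp h2 with h4 | h4
    · exact sub_eq_zero.mp h4
    · exact absurd h4 (rho_ne_zero ρ y)

theorem psi_rho (hc : ∀ x y, IsScal (ρ (x * y * x⁻¹ * y⁻¹))) (t : E) :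
    psi ρ (ρ t) = (∑ g : E, cf hc g t) • ρ t := by
  unfold psi
  rw [Finset.sum_smul]
  exact Finset.sum_congr rfl fun g _ => cf_conj hc g t

theorem sum_cf_eq_zero (hc : ∀ x y, IsScal (ρ (x * y * x⁻¹ * y⁻¹))) {t g₀ : E}
    (h : cf hc g₀ t ≠ 1) : ∑ g : E, cf hc g t = 0 := by
  have h1 : cf hc g₀ t * ∑ g : E, cf hc g t = ∑ g : E, cf hc g t := by
    rw [Finset.mul_sum]
    refine Fintype.sum_equiv (Equiv.mulLeft g₀) _ _ ?_
    intro g
    simp only [Equiv.coe_mulLeft]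
    rw [cf_mul]
  have h2 : (cf hc g₀ t - 1) * ∑ g : E, cf hc g t = 0 := by
    rw [sub_mul, one_mul, h1, sub_self]
  rcases mul_eq_zero.mp h2 with h3 | h3
  · exact absurd (sub_eq_zero.mp h3) h
  · exact h3

/-- Schur's lemma for a family of operators. -/
theorem schur {F : Set (Module.End k W)}
    (hirr : ∀ U : Submodule k W, (∀ g ∈ F, ∀ w ∈ U, g w ∈ U) → U = ⊥ ∨ U = ⊤)
    {f : Module.End k W} (hf : ∀ g ∈ F, f * g = g * f) : IsScal f := by
  obtain ⟨c, hc⟩ := Module.End.exists_eigenvalue f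
  have hst : ∀ g ∈ F, ∀ w ∈ f.eigenspace c, g w ∈ f.eigenspace c := by
    intro g hg w hw
    refine Module.End.mem_eigenspace_iff.mpr ?_
    have h1 : f (g w) = g (f w) := by
      have := congrArg (fun e : Module.End k W => e w) (hf g hg)
      simpa using this
    rw [h1, Module.End.mem_eigenspace_iff.mp hw, map_smul]
  rcases hirr (f.eigenspace c) hst with h | h
  · exact absurd h hc
  · refine ⟨c, ?_⟩
    ext w
    have h1 : w ∈ f.eigenspace c := h ▸ Submodule.mem_top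
    have h2 := Module.End.mem_eigenspace_iff.mp h1
    simpa using h2

/-- The inverse of `τ`, as a power. -/
theorem tau_mul_pow (hτM : τ ^ M = 1) (hM2 : 2 ≤ M) : τ * τ ^ (M - 1) = 1 := by
  rw [← pow_succ']
  have : M - 1 + 1 = M := by omega
  rw [this, hτM]

theorem pow_mul_tau (hτM : τ ^ M = 1) (hM2 : 2 ≤ M) : τ ^ (M - 1) * τ = 1 := by
  rw [← pow_succ]
  have : M - 1 + 1 = M := by omega
  rw [this, hτM]

/-- Scalars are fixed by `α`. -/
theorem rho_alpha_of_scal (hτρ : ∀ x, τ * ρ x = ρ (α x) * τ) {τ' : Module.End k W} (hτ' : τ * τ' = 1)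
    {h : E} {c : k} (hc : ρ h = c • 1) : ρ (α h) = c • 1 := by
  have h1 := hτρ h
  rw [hc, mul_smul_comm, mul_one] at h1
  calc ρ (α h) = ρ (α h) * (τ * τ') := by rw [hτ', mul_one]
    _ = (c • τ) * τ' := by rw [← mul_assoc, ← h1]
    _ = c • 1 := by rw [smul_mul_assoc, hτ']

/-- The key computation: `Ψ(τ) Ψ(τ⁻¹)` is the scalar `|Z| |E|`. -/
theorem psi_mul_psi (hd : HHData ρ τ α M) (hM2 : 2 ≤ M) :
    psi ρ τ * psi ρ (τ ^ (M - 1)) =
      ((Nat.card (scalarSub ρ) * Nat.card E : ℕ) : k) • (1 : Module.End k W) := by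
  classical
  set τ' := τ ^ (M - 1) with hτ'def
  have hτ' : τ * τ' = 1 := tau_mul_pow hd.hτM hM2
  have hcomm' : ∀ g : E, ρ g⁻¹ * psi ρ τ' = psi ρ τ' * ρ g⁻¹ := fun g => psi_comm ρ τ' g⁻¹
  have h1 : psi ρ τ * psi ρ τ' = ∑ h : E, psi ρ (ρ (α h * h⁻¹)) := by
    have h2 : ∀ g : E, ρ g * τ * ρ g⁻¹ * psi ρ τ' = ρ g * (τ * psi ρ τ') * ρ g⁻¹ := by
      intro g
      rw [mul_assoc (ρ g * τ), hcomm' g]
      simp only [mul_assoc]
    have h3 : τ * psi ρ τ' = ∑ h : E, ρ (α h * h⁻¹) := by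
      unfold psi
      rw [Finset.mul_sum]
      refine Finset.sum_congr rfl fun h _ => ?_
      calc τ * (ρ h * τ' * ρ h⁻¹) = (τ * ρ h) * τ' * ρ h⁻¹ := by simp only [mul_assoc]
        _ = ρ (α h) * (τ * τ') * ρ h⁻¹ := by rw [hd.hτρ]; simp only [mul_assoc]
        _ = ρ (α h * h⁻¹) := by rw [hτ', mul_one, map_mul]
    have h4 : psi ρ τ * psi ρ τ' = ∑ g : E, ρ g * (τ * psi ρ τ') * ρ g⁻¹ := by
      conv_lhs => unfold psi
      rw [Finset.sum_mul]
      exact Finset.sum_congr rfl fun g _ => h2 g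
    rw [h4, h3]
    unfold psi
    simp only [Finset.mul_sum, Finset.sum_mul]
    rw [Finset.sum_comm]
  rw [h1]
  have hval : ∀ h : E, psi ρ (ρ (α h * h⁻¹)) =
      if h ∈ scalarSub ρ then ((Nat.card E : ℕ) : k) • (1 : Module.End k W) else 0 := by
    intro h
    split_ifs with hh
    · obtain ⟨c, hc⟩ := hh
      have h2 : ρ (α h) = c • 1 := rho_alpha_of_scal hd.hτρ hτ' hc
      have h3 : ρ (α h * h⁻¹) = 1 := by
        rw [map_mul, h2, ← hc, rho_mul_inv]
      rw [h3]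
      unfold psi
      have h4 : ∀ g : E, ρ g * 1 * ρ g⁻¹ = 1 := fun g => by
        rw [mul_one, rho_mul_inv]
      simp only [h4]
      rw [Finset.sum_const, Finset.card_univ, Nat.card_eq_fintype_card, Nat.cast_smul_eq_nsmul]
    · set t := α h * h⁻¹ with ht
      have h2 : ¬ IsScal (ρ t) := by
        intro h3
        refine hh (hd.hfpf 1 ?_ h ?_)
        · intro h4
          have := Nat.le_of_dvd one_pos h4
          omega
        · rw [pow_one]
          exact h3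
      have h5 : ∃ g₀, cf hd.hcomm g₀ t ≠ 1 := by
        by_contra hcon
        push Not at hcon
        refine h2 (hd.hrad t fun y => ?_)
        exact ((cf_eq_one_iff hd.hcomm y t).mp (hcon y)).symm
      obtain ⟨g₀, hg₀⟩ := h5
      rw [psi_rho hd.hcomm, sum_cf_eq_zero hd.hcomm hg₀, zero_smul]
  simp only [hval]
  rw [Finset.sum_ite, Finset.sum_const_zero, add_zero, Finset.sum_const]
  have hcard : (Finset.univ.filter (· ∈ scalarSub ρ)).card = Nat.card (scalarSub ρ) := by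
    rw [Nat.card_eq_fintype_card, Fintype.card_subtype]
  rw [hcard, Nat.cast_mul, mul_smul, Nat.cast_smul_eq_nsmul, Nat.cast_smul_eq_nsmul]

/-- The card of the scalar subgroup is invertible. -/
theorem card_scalar_ne (hd : HHData ρ τ α M) : (Nat.card (scalarSub ρ) : k) ≠ 0 := by
  intro h
  apply hd.hE
  have h1 := Subgroup.card_subgroup_dvd_card (scalarSub ρ)
  obtain ⟨c, hc⟩ := h1
  rw [hc, Nat.cast_mul, h, zero_mul]

/-- Under irreducibility for `E` and `τ`, already `E` acts irreducibly, and `τ⁻¹` is in the span. -/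
theorem irr_of_irr (hd : HHData ρ τ α M) (hM2 : 2 ≤ M)
    (hirr : ∀ U : Submodule k W, (∀ x, ∀ w ∈ U, ρ x w ∈ U) → (∀ w ∈ U, τ w ∈ U) → U = ⊥ ∨ U = ⊤) :
    ∀ U : Submodule k W, (∀ x, ∀ w ∈ U, ρ x w ∈ U) → U = ⊥ ∨ U = ⊤ := by
  classical
  set τ' := τ ^ (M - 1) with hτ'def
  have hτ' : τ * τ' = 1 := tau_mul_pow hd.hτM hM2
  have hτ'' : τ' * τ = 1 := pow_mul_tau hd.hτM hM2
  let F : Set (Module.End k W) := Set.range ρ ∪ {τ}
  have hirrF : ∀ U : Submodule k W, (∀ g ∈ F, ∀ w ∈ U, g w ∈ U) → U = ⊥ ∨ U = ⊤ := by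
    intro U hU
    refine hirr U (fun x w hw => hU _ (Or.inl ⟨x, rfl⟩) w hw) (fun w hw => hU _ (Or.inr rfl) w hw)
  have hS : ∀ X : Module.End k W, τ * X = X * τ → IsScal (psi ρ X) := by
    intro X hX
    refine schur hirrF ?_
    rintro g (⟨x, rfl⟩ | rfl)
    · exact (psi_comm ρ X x).symm
    · exact (psi_comm_tau hd.hτρ hX).symm
  obtain ⟨δ, hδ⟩ := hS τ rfl
  obtain ⟨δ', hδ'⟩ := hS τ' (by rw [hτ', hτ''])
  have hprod := psi_mul_psi hd hM2
  rw [← hτ'def, hδ, hδ', smul_mul_assoc, mul_smul_comm, one_mul, smul_smul] at hprod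
  have hne : ((Nat.card (scalarSub ρ) * Nat.card E : ℕ) : k) ≠ 0 := by
    rw [Nat.cast_mul]
    exact mul_ne_zero (card_scalar_ne hd) hd.hE
  have hδ0 : δ ≠ 0 := by
    rintro rfl
    rw [zero_mul, zero_smul] at hprod
    have h1 : ((Nat.card (scalarSub ρ) * Nat.card E : ℕ) : k) • (1 : Module.End k W) = 0 := hprod.symm
    rcases smul_eq_zero.mp h1 with h2 | h2
    · exact hne h2
    · exact one_ne_zero_end h2
  -- `Ψ(τ) = (∑ ρ(g α(g)⁻¹)) τ`
  have hΨ : (∑ g : E, ρ (g * (α g)⁻¹)) * τ = δ • 1 := by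
    rw [← hδ]
    unfold psi
    rw [Finset.sum_mul]
    refine Finset.sum_congr rfl fun g _ => ?_
    rw [map_mul, mul_assoc, mul_assoc, hd.hτρ g⁻¹, map_inv α]
  have hτ'eq : τ' = δ⁻¹ • ∑ g : E, ρ (g * (α g)⁻¹) := by
    have h1 : (∑ g : E, ρ (g * (α g)⁻¹)) = δ • τ' := by
      calc (∑ g : E, ρ (g * (α g)⁻¹)) = (∑ g : E, ρ (g * (α g)⁻¹)) * (τ * τ') := by rw [hτ', mul_one]
        _ = δ • τ' := by rw [← mul_assoc, hΨ, smul_mul_assoc, one_mul]
    rw [h1, smul_smul, inv_mul_cancel₀ hδ0, one_smul]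
  intro U hU
  have hτ'U : ∀ w ∈ U, τ' w ∈ U := by
    intro w hw
    rw [hτ'eq]
    simp only [LinearMap.smul_apply, LinearMap.sum_apply]
    exact U.smul_mem _ (U.sum_mem fun g _ => hU _ w hw)
  have hτU : ∀ w ∈ U, τ w ∈ U := by
    obtain ⟨m, rfl⟩ : ∃ m, M = m + 2 := ⟨M - 2, by omega⟩
    have h1 : τ = τ' ^ (m + 1) := by
      have h2 : (m + 2 - 1) * (m + 1) = (m + 2) * m + 1 := by
        have : m + 2 - 1 = m + 1 := by omega
        rw [this]
        ring
      rw [hτ'def, ← pow_mul, h2, pow_succ, pow_mul, hd.hτM, one_pow, one_mul]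
    rw [h1]
    have h3 : ∀ n : ℕ, ∀ w ∈ U, (τ' ^ n) w ∈ U := by
      intro n
      induction n with
      | zero => simp
      | succ n ih =>
        intro w hw
        rw [pow_succ']
        exact hτ'U _ (ih w hw)
    exact h3 _
  exact hirr U hU hτU

end Irr

end Cfsg.Agent.Lib.ShultGross
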