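import Mathlib
import Cfsg.Agent.Lib.ShultGross.Heis

/-!
# The Weyl basis and the bound on `End_τ(W)`
-/

set_option autoImplicit false
set_option linter.unusedSectionVars false
set_option linter.style.haveILetI false
set_option linter.unusedVariables false

namespace Cfsg.Agent.Lib.ShultGross

open Cfsg.Agent.Lib.Ward

section Weyl

variable {k W E : Type*} [Field k] [IsAlgClosed k] [AddCommGroup W] [Module k W]
  [FiniteDimensional k W] [Nontrivial W] [Group E] [Fintype E]
  {ρ : E →* Module.End k W} {τ : Module.End k W} {α : MulAut E} {M : ℕ}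

/-- The conjugation representation on `End(W)`. -/
noncomputable def conjRep (ρ : E →* Module.End k W) : E →* Module.End k (Module.End k W) where
  toFun g :=
    { toFun := fun X => ρ g * X * ρ g⁻¹
      map_add' := by
        intro X Y
        simp [mul_add, add_mul]
      map_smul' := by
        intro c X
        simp }
  map_one' := by
    ext X
    simp
  map_mul' := by
    intro g h
    ext X
    simp [mul_assoc]

theorem conjRep_apply (g : E) (X : Module.End k W) : conjRep ρ g X = ρ g * X * ρ g⁻¹ := rfl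

theorem isWt_rho (hc : ∀ x y, IsScal (ρ (x * y * x⁻¹ * y⁻¹))) (t : E) :
    IsWt (conjRep ρ) ⊤ (fun y => cf hc y t) (ρ t) := by
  intro y _
  exact cf_conj hc y t

theorem cf_mul_right (hc : ∀ x y, IsScal (ρ (x * y * x⁻¹ * y⁻¹))) (y t t' : E) :
    cf hc y (t * t') = cf hc y t * cf hc y t' := by
  have h1 := cf_conj hc y (t * t')
  have h2 : ρ y * ρ (t * t') * ρ y⁻¹ = (ρ y * ρ t * ρ y⁻¹) * (ρ y * ρ t' * ρ y⁻¹) := by
    rw [map_mul]
    calc ρ y * (ρ t * ρ t') * ρ y⁻¹ = ρ y * ρ t * 1 * ρ t' * ρ y⁻¹ := by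
          simp only [mul_one, mul_assoc]
      _ = ρ y * ρ t * (ρ y⁻¹ * ρ y) * ρ t' * ρ y⁻¹ := by rw [rho_inv_mul]
      _ = _ := by simp only [mul_assoc]
  rw [h2, cf_conj hc y t, cf_conj hc y t', smul_mul_assoc, mul_smul_comm, smul_smul, ← map_mul] at h1
  have h3 : (cf hc y t * cf hc y t' - cf hc y (t * t')) • ρ (t * t') = 0 := by
    rw [sub_smul, h1, sub_self]
  rcases smul_eq_zero.mp h3 with h4 | h4
  · exact (sub_eq_zero.mp h4).symm
  · exact absurd h4 (rho_ne_zero ρ _)

theorem cf_one_right (hc : ∀ x y, IsScal (ρ (x * y * x⁻¹ * y⁻¹))) (y : E) : cf hc y 1 = 1 := by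
  rw [cf_eq_one_iff hc, map_one, mul_one, one_mul]

theorem central_of_cf_eq (hc : ∀ x y, IsScal (ρ (x * y * x⁻¹ * y⁻¹))) {t t' y : E}
    (h : cf hc y t = cf hc y t') : cf hc y (t'⁻¹ * t) = 1 := by
  have h1 : cf hc y t'⁻¹ * cf hc y t' = 1 := by
    rw [← cf_mul_right, inv_mul_cancel, cf_one_right]
  rw [cf_mul_right, h, h1]

/-- The Weyl operators are independent. -/
theorem weyl_indep (hd : HHData ρ τ α M) :
    LinearIndependent k (fun s : E ⧸ scalarSub ρ => ρ (Quotient.out s)) := by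
  classical
  rw [linearIndependent_iff']
  intro s g hg i hi
  have hdist : ∀ a ∈ s, ∀ b ∈ s, a ≠ b →
      ∃ y ∈ (⊤ : Subgroup E), cf hd.hcomm y (Quotient.out a) ≠ cf hd.hcomm y (Quotient.out b) := by
    intro a _ b _ hab
    by_contra hcon
    push Not at hcon
    have h1 : IsScal (ρ ((Quotient.out b)⁻¹ * Quotient.out a)) := by
      refine hd.hrad _ fun y => ?_
      exact ((cf_eq_one_iff hd.hcomm y _).mp (central_of_cf_eq hd.hcomm (hcon y trivial))).symm
    apply hab
    have h2 : (Quotient.out b : E) ⁻¹ * Quotient.out a ∈ scalarSub ρ := h1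
    have h3 : ((Quotient.out b : E) : E ⧸ scalarSub ρ) = ((Quotient.out a : E) : E ⧸ scalarSub ρ) :=
      QuotientGroup.eq.mpr h2
    rw [QuotientGroup.out_eq', QuotientGroup.out_eq'] at h3
    exact h3.symm
  have h := eq_zero_of_sum_eq_zero (ρ := conjRep ρ) (K := (⊤ : Subgroup E)) s
    (fun a y => cf hd.hcomm y (Quotient.out a)) hdist
    (fun a => g a • ρ (Quotient.out a))
    (fun a _ => (isWt_rho hd.hcomm (Quotient.out a)).smul (g a)) hg i hi
  rcases smul_eq_zero.mp h with h1 | h1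
  · exact h1
  · exact absurd h1 (rho_ne_zero ρ _)

theorem card_quot_le (hd : HHData ρ τ α M) :
    Nat.card (E ⧸ scalarSub ρ) ≤ Module.finrank k (Module.End k W) := by
  classical
  rw [Nat.card_eq_fintype_card]
  exact (weyl_indep hd).fintype_card_le_finrank

/-- Two operators of the same weight are proportional, by Schur. -/
theorem exists_smul_of_same_wt (hd : HHData ρ τ α M)
    (hirrE : ∀ U : Submodule k W, (∀ x, ∀ w ∈ U, ρ x w ∈ U) → U = ⊥ ∨ U = ⊤)
    {X Y : Module.End k W} {lam : E → k} (hX : IsWt (conjRep ρ) ⊤ lam X) (hY : IsWt (conjRep ρ) ⊤ lam Y)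
    (hX0 : X ≠ 0) : ∃ c : k, Y = c • X := by
  have hXr : ∀ g : E, ρ g * X = lam g • (X * ρ g) := by
    intro g
    have h1 := hX g trivial
    rw [conjRep_apply] at h1
    calc ρ g * X = (ρ g * X * ρ g⁻¹) * ρ g := by
          rw [mul_assoc (ρ g * X), rho_inv_mul, mul_one]
      _ = lam g • (X * ρ g) := by rw [h1, smul_mul_assoc]
  have hYr : ∀ g : E, ρ g * Y = lam g • (Y * ρ g) := by
    intro g
    have h1 := hY g trivial
    rw [conjRep_apply] at h1
    calc ρ g * Y = (ρ g * Y * ρ g⁻¹) * ρ g := by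
          rw [mul_assoc (ρ g * Y), rho_inv_mul, mul_one]
      _ = lam g • (Y * ρ g) := by rw [h1, smul_mul_assoc]
  have hlam0 : ∀ g : E, lam g ≠ 0 := by
    intro g h0
    have h1 := hXr g
    rw [h0, zero_smul] at h1
    have h2 : X = ρ g⁻¹ * (ρ g * X) := by rw [← mul_assoc, rho_inv_mul, one_mul]
    rw [h1, mul_zero] at h2
    exact hX0 h2
  -- `X` is invertible
  have hst : ∀ x, ∀ w ∈ LinearMap.ker X, ρ x w ∈ LinearMap.ker X := by
    intro g w hw
    rw [LinearMap.mem_ker] at hw ⊢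
    have h1 := congrArg (fun e : Module.End k W => e w) (hXr g)
    simp only [Module.End.mul_apply, hw, map_zero, LinearMap.smul_apply] at h1
    rcases smul_eq_zero.mp h1.symm with h2 | h2
    · exact absurd h2 (hlam0 g)
    · exact h2
  have hker : LinearMap.ker X = ⊥ := by
    rcases hirrE (LinearMap.ker X) hst with h | h
    · exact h
    · exfalso
      apply hX0
      exact LinearMap.ker_eq_top.mp h
  obtain ⟨u, hu⟩ := (LinearMap.isUnit_iff_ker_eq_bot X).mpr hker
  set X' : Module.End k W := ((u⁻¹ : (Module.End k W)ˣ) : Module.End k W) with hX'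
  have h1 : X * X' = 1 := by rw [← hu, hX']; exact u.mul_inv
  have h2 : X' * X = 1 := by rw [← hu, hX']; exact u.inv_mul
  have h3 : ∀ g : E, X' * ρ g = lam g • (ρ g * X') := by
    intro g
    calc X' * ρ g = X' * ρ g * (X * X') := by rw [h1, mul_one]
      _ = X' * (ρ g * X) * X' := by simp only [mul_assoc]
      _ = lam g • (X' * X * ρ g * X') := by
          rw [hXr, mul_smul_comm, smul_mul_assoc]
          simp only [mul_assoc]
      _ = lam g • (ρ g * X') := by rw [h2, one_mul]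
  have hF : ∀ U : Submodule k W, (∀ g ∈ Set.range ρ, ∀ w ∈ U, g w ∈ U) → U = ⊥ ∨ U = ⊤ := by
    intro U hU
    exact hirrE U fun x w hw => hU _ ⟨x, rfl⟩ w hw
  obtain ⟨c, hc⟩ : IsScal (Y * X') := by
    refine schur hF ?_
    rintro _ ⟨g, rfl⟩
    calc Y * X' * ρ g = Y * (X' * ρ g) := by rw [mul_assoc]
      _ = lam g • (Y * ρ g * X') := by rw [h3, mul_smul_comm, mul_assoc]
      _ = ρ g * (Y * X') := by rw [← mul_assoc, hYr, smul_mul_assoc]
  refine ⟨c, ?_⟩
  calc Y = Y * (X' * X) := by rw [h2, mul_one]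
    _ = (Y * X') * X := by rw [mul_assoc]
    _ = c • X := by rw [hc, smul_mul_assoc, one_mul]

/-- The dimension bound. -/
theorem finrank_le_card_quot (hd : HHData ρ τ α M)
    (hirrE : ∀ U : Submodule k W, (∀ x, ∀ w ∈ U, ρ x w ∈ U) → U = ⊥ ∨ U = ⊤) :
    Module.finrank k (Module.End k W) ≤ Nat.card (E ⧸ scalarSub ρ) := by
  classical
  set V : Set (Module.End k W) := {X | X ≠ 0 ∧ ∃ lam : E → k, IsWt (conjRep ρ) ⊤ lam X} with hV
  have hcomm : ∀ y ∈ (⊤ : Subgroup E), ∀ z ∈ (⊤ : Subgroup E), ∀ X ∈ (⊤ : Submodule k (Module.End k W)),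
      conjRep ρ y (conjRep ρ z X) = conjRep ρ z (conjRep ρ y X) := by
    intro y _ z _ X _
    have h1 : ∀ a b : E, conjRep ρ a (conjRep ρ b X) = conjRep ρ (a * b) X := by
      intro a b
      rw [map_mul]
      rfl
    rw [h1, h1, conjRep_apply, conjRep_apply]
    -- `yz` and `zy` differ by a scalar
    obtain ⟨c, hc⟩ := hd.hcomm y z
    have h2 : ρ (y * z) = c • ρ (z * y) := by
      calc ρ (y * z) = ρ ((y * z * y⁻¹ * z⁻¹) * (z * y)) := by
            congr 1
            group
        _ = c • ρ (z * y) := by rw [map_mul, hc, smul_mul_assoc, one_mul]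
    have h3 : ρ (y * z)⁻¹ * ρ (y * z) = 1 := rho_inv_mul ρ _
    have h4 : ρ (z * y)⁻¹ * ρ (z * y) = 1 := rho_inv_mul ρ _
    have h5 : ρ (y * z) * ρ (y * z)⁻¹ = 1 := rho_mul_inv ρ _
    have hc0 : c ≠ 0 := by
      rintro rfl
      rw [zero_smul] at h2
      exact rho_ne_zero ρ _ h2
    have h6 : ρ (y * z)⁻¹ = c⁻¹ • ρ (z * y)⁻¹ := by
      calc ρ (y * z)⁻¹ = ρ (y * z)⁻¹ * (ρ (z * y) * ρ (z * y)⁻¹) := by
            rw [rho_mul_inv, mul_one]
        _ = ρ (y * z)⁻¹ * (c⁻¹ • ρ (y * z) * ρ (z * y)⁻¹) := by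
            rw [h2, smul_smul, inv_mul_cancel₀ hc0, one_smul]
        _ = c⁻¹ • ρ (z * y)⁻¹ := by
            rw [smul_mul_assoc, mul_smul_comm, ← mul_assoc, h3, one_mul]
    rw [h2, h6]
    simp only [smul_mul_assoc, mul_smul_comm, smul_smul, inv_mul_cancel₀ hc0, mul_inv_cancel₀ hc0,
      one_smul]
  have hspan : (⊤ : Submodule k (Module.End k W)) ≤ Submodule.span k V := by
    refine le_of_forall_wt (K := (⊤ : Subgroup E)) (ρ := conjRep ρ) ?_ (fun _ _ _ _ => Submodule.mem_top) hcomm ?_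
    · rw [Subgroup.card_top]
      exact hd.hE
    · intro X _ lam hX
      by_cases hX0 : X = 0
      · rw [hX0]
        exact Submodule.zero_mem _
      · exact Submodule.subset_span ⟨hX0, lam, hX⟩
  obtain ⟨b, hbV, hbspan, hbind⟩ := exists_linearIndependent k V
  rw [← hbspan] at hspan
  let B := Module.Basis.mk hbind (by simpa using hspan)
  haveI : Finite b := Module.Finite.finite_basis B
  haveI : Fintype b := Fintype.ofFinite b
  rw [Module.finrank_eq_card_basis B]
  -- the weights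
  have hw : ∀ X : b, ∃ χ : (E ⧸ scalarSub ρ) →* k, ∀ g : E, conjRep ρ g X.1 = χ g • X.1 := by
    intro X
    obtain ⟨hX0, lam, hX⟩ := hbV X.2
    have hmul : ∀ x y : E, lam (x * y) = lam x * lam y := fun x y => hX.map_mul hX0 trivial trivial
    have hone : lam 1 = 1 := hX.map_one hX0
    let χ₀ : E →* k := { toFun := lam, map_one' := hone, map_mul' := hmul }
    have hχ₀ : ∀ z ∈ scalarSub ρ, χ₀ z = 1 := by
      rintro z ⟨c, hc⟩
      show lam z = 1
      refine (hX.eq_iff_fix hX0 trivial).mp ?_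
      have : ρ z * X.1 = X.1 * ρ z := by
        rw [hc]
        simp
      rw [conjRep_apply, this, mul_assoc, rho_mul_inv, mul_one]
    refine ⟨QuotientGroup.lift _ χ₀ hχ₀, fun g => ?_⟩
    exact hX g trivial
  choose χ hχ using hw
  have hinj : Function.Injective χ := by
    intro X Y hXY
    by_contra hne
    obtain ⟨hX0, -⟩ := hbV X.2
    have hXw : IsWt (conjRep ρ) ⊤ (fun g => χ X (g : E ⧸ scalarSub ρ)) X.1 := fun g _ => hχ X g
    have hYw : IsWt (conjRep ρ) ⊤ (fun g => χ X (g : E ⧸ scalarSub ρ)) Y.1 := fun g _ => by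
      rw [hXY]
      exact hχ Y g
    obtain ⟨c, hc⟩ := exists_smul_of_same_wt hd hirrE hXw hYw hX0
    have hpair := hbind
    rw [linearIndependent_iff'] at hpair
    have h1 := hpair {X, Y} (fun Z => if Z = X then c else -1) (by
      rw [Finset.sum_pair hne]
      simp only [if_true, hne, if_false, Ne.symm hne]
      rw [neg_smul, one_smul, ← hc]
      simp [if_neg (Ne.symm hne)]) Y (by simp)
    simp only [if_neg (Ne.symm hne)] at h1
    exact one_ne_zero (neg_eq_zero.mp h1)
  have hdk : LinearIndependent k (fun X : b => ((χ X : (E ⧸ scalarSub ρ) →* k) : (E ⧸ scalarSub ρ) → k)) :=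
    (linearIndependent_monoidHom (E ⧸ scalarSub ρ) k).comp χ hinj
  have := hdk.fintype_card_le_finrank
  rw [Module.finrank_fintype_fun_eq_card] at this
  rwa [Nat.card_eq_fintype_card]

end Weyl

end Cfsg.Agent.Lib.ShultGross
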