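import Mathlib
import Cfsg.Agent.Lib.ShultGross.Heis2

/-!
# The bound: a fixed vector, or `|E : scalars| = d²` with `d + 1 ≤ M`
-/

set_option autoImplicit false
set_option linter.unusedSectionVars false
set_option linter.style.haveILetI false
set_option linter.unusedVariables false

namespace Cfsg.Agent.Lib.ShultGross

open Cfsg.Agent.Lib.Ward

section Count

variable {k W E : Type*} [Field k] [IsAlgClosed k] [AddCommGroup W] [Module k W]
  [FiniteDimensional k W] [Nontrivial W] [Group E] [Fintype E]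
  {ρ : E →* Module.End k W} {τ : Module.End k W} {α : MulAut E} {M : ℕ}

/-- The commutant of `τ`. -/
def tauComm (τ : Module.End k W) : Submodule k (Module.End k W) where
  carrier := {X | τ * X = X * τ}
  add_mem' := by
    intro a b ha hb
    show τ * (a + b) = (a + b) * τ
    rw [mul_add, add_mul, show τ * a = a * τ from ha, show τ * b = b * τ from hb]
  zero_mem' := by
    show τ * 0 = 0 * τ
    simp
  smul_mem' := by
    intro c a ha
    show τ * (c • a) = (c • a) * τ
    rw [mul_smul_comm, smul_mul_assoc, show τ * a = a * τ from ha]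

theorem mem_tauComm {X : Module.End k W} : X ∈ tauComm τ ↔ τ * X = X * τ := Iff.rfl

theorem map_alpha_scalar (hd : HHData ρ τ α M) (hM2 : 2 ≤ M) :
    (scalarSub ρ).map α.toMonoidHom = scalarSub ρ := by
  have hτ' := tau_mul_pow hd.hτM hM2
  have hτ'' := pow_mul_tau hd.hτM hM2
  apply le_antisymm
  · rintro _ ⟨x, ⟨c, hc⟩, rfl⟩
    exact ⟨c, rho_alpha_of_scal hd.hτρ hτ' hc⟩
  · rintro x ⟨c, hc⟩
    refine ⟨α⁻¹ x, ⟨c, ?_⟩, by simp⟩
    have h1 := hd.hτρ (α⁻¹ x)
    have h2 : α (α⁻¹ x) = x := by simp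
    rw [h2, hc, smul_mul_assoc, one_mul] at h1
    calc ρ (α⁻¹ x) = (τ ^ (M - 1) * τ) * ρ (α⁻¹ x) := by rw [hτ'', one_mul]
      _ = τ ^ (M - 1) * (c • τ) := by rw [mul_assoc, h1]
      _ = c • 1 := by rw [mul_smul_comm, hτ'']

/-- The permutation of `E / scalars` induced by `α`. -/
noncomputable def piPerm (hα : (scalarSub ρ).map α.toMonoidHom = scalarSub ρ) :
    (E ⧸ scalarSub ρ) ≃* (E ⧸ scalarSub ρ) :=
  QuotientGroup.congr (scalarSub ρ) (scalarSub ρ) α hα

theorem piPerm_mk (hα : (scalarSub ρ).map α.toMonoidHom = scalarSub ρ) (g : E) :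
    piPerm hα (g : E ⧸ scalarSub ρ) = ((α g : E) : E ⧸ scalarSub ρ) := rfl

theorem piPerm_pow_mk (hα : (scalarSub ρ).map α.toMonoidHom = scalarSub ρ) (i : ℕ) (g : E) :
    ((piPerm hα).toEquiv ^ i : Equiv.Perm _) (g : E ⧸ scalarSub ρ) = (((α ^ i) g : E) : E ⧸ scalarSub ρ) := by
  induction i with
  | zero => simp
  | succ i ih =>
    rw [pow_succ', Equiv.Perm.mul_apply, ih, pow_succ', MulAut.mul_apply]
    rfl

/-- The orbit count on `E / scalars`. -/
theorem exists_reps (hd : HHData ρ τ α M) (hM2 : 2 ≤ M) [Fintype (E ⧸ scalarSub ρ)] [DecidableEq (E ⧸ scalarSub ρ)] :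
    ∃ T : Finset (E ⧸ scalarSub ρ), (1 : E ⧸ scalarSub ρ) ∉ T ∧
      (∀ x, x ≠ 1 → ∃ i : ℕ, ∃ t ∈ T, x = ((piPerm (map_alpha_scalar hd hM2)).toEquiv ^ i : Equiv.Perm _) t) ∧
      M * T.card + 1 = Nat.card (E ⧸ scalarSub ρ) := by
  have hα := map_alpha_scalar hd hM2
  rw [Nat.card_eq_fintype_card]
  refine card_eq_of_semiregular (piPerm hα).toEquiv 1 M (by omega) ?_ ?_ ?_
  · ext x
    induction x using QuotientGroup.induction_on with
    | H g =>
      rw [piPerm_pow_mk, hd.hαM]
      rfl
  · intro i hi x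
    induction x using QuotientGroup.induction_on with
    | H g =>
      rw [piPerm_pow_mk]
      intro h
      have h1 : (α ^ i) g * g⁻¹ ∈ scalarSub ρ := by
        have h2 := QuotientGroup.eq.mp h
        have h3 := (scalarSub_normal ρ).conj_mem _ h2 ((α ^ i) g)
        have e : (α ^ i) g * (((α ^ i) g)⁻¹ * g) * ((α ^ i) g)⁻¹ = g * ((α ^ i) g)⁻¹ := by group
        rw [e] at h3
        have h4 := (scalarSub ρ).inv_mem h3
        simpa using h4
      have h5 := hd.hfpf i hi g h1
      exact (QuotientGroup.eq_one_iff g).mpr h5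
  · exact map_one (piPerm hα)

/-- The coefficient relation in the Weyl basis. -/
theorem coeff_relation (hd : HHData ρ τ α M) (hM2 : 2 ≤ M) [Fintype (E ⧸ scalarSub ρ)] [DecidableEq (E ⧸ scalarSub ρ)]
    (B : Module.Basis (E ⧸ scalarSub ρ) k (Module.End k W))
    (hB : ∀ s, B s = ρ (Quotient.out s)) {X : Module.End k W} (hX : X ∈ tauComm τ) (s : E ⧸ scalarSub ρ) :
    ∃ c : k, B.repr X ((piPerm (map_alpha_scalar hd hM2)) s) = c * B.repr X s := by
  have hα := map_alpha_scalar hd hM2
  set π := piPerm hα with hπ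
  have hτ' := tau_mul_pow hd.hτM hM2
  set τ' := τ ^ (M - 1) with hτ'def
  have hcoef : ∀ s : E ⧸ scalarSub ρ, ∃ c : k, τ * B s * τ' = c • B (π s) := by
    intro s
    have h1 : τ * ρ (Quotient.out s) * τ' = ρ (α (Quotient.out s)) := by
      rw [hd.hτρ, mul_assoc, hτ', mul_one]
    have h2 : ((Quotient.out (π s)) : E)⁻¹ * α (Quotient.out s) ∈ scalarSub ρ := by
      refine QuotientGroup.eq.mp ?_
      rw [QuotientGroup.out_eq', ← piPerm_mk hα, QuotientGroup.out_eq']
    obtain ⟨c, hc⟩ := h2
    refine ⟨c, ?_⟩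
    rw [hB, hB, h1]
    have h3 : α (Quotient.out s) = Quotient.out (π s) * ((Quotient.out (π s))⁻¹ * α (Quotient.out s)) := by
      group
    rw [h3, map_mul, hc, mul_smul_comm, mul_one]
  choose c hc using hcoef
  refine ⟨c s, ?_⟩
  have hXeq : τ * X * τ' = X := by
    rw [show τ * X = X * τ from hX, mul_assoc, hτ', mul_one]
  have hsum : X = ∑ s, B.repr X s • B s := (B.sum_repr X).symm
  have h1 : X = ∑ s, (B.repr X s * c s) • B (π s) := by
    conv_lhs => rw [← hXeq, hsum]
    rw [Finset.mul_sum, Finset.sum_mul]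
    refine Finset.sum_congr rfl fun s _ => ?_
    rw [mul_smul_comm, smul_mul_assoc, hc, smul_smul]
  have h2 := congrArg (fun Y => B.repr Y (π s)) h1
  simp only [map_sum, map_smul, Module.Basis.repr_self, Finsupp.coe_finsetSum, Finset.sum_apply] at h2
  rw [h2]
  simp only [Finsupp.coe_smul, Pi.smul_apply, smul_eq_mul]
  rw [Finset.sum_eq_single s]
  · rw [Finsupp.single_eq_same, mul_one, mul_comm]
  · intro b _ hb
    rw [Finsupp.single_eq_of_ne, mul_zero]
    intro h
    exact hb (π.injective h).symm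
  · simp

/-- The dimension of the commutant is at most the number of orbits. -/
theorem finrank_tauComm_le (hd : HHData ρ τ α M) (hM2 : 2 ≤ M) [Fintype (E ⧸ scalarSub ρ)]
    [DecidableEq (E ⧸ scalarSub ρ)]
    (B : Module.Basis (E ⧸ scalarSub ρ) k (Module.End k W))
    (hB : ∀ s, B s = ρ (Quotient.out s)) (T : Finset (E ⧸ scalarSub ρ)) (h1T : (1 : E ⧸ scalarSub ρ) ∉ T)
    (hT : ∀ x, x ≠ 1 → ∃ i : ℕ, ∃ t ∈ T, x = ((piPerm (map_alpha_scalar hd hM2)).toEquiv ^ i : Equiv.Perm _) t) :
    Module.finrank k (tauComm τ) ≤ T.card + 1 := by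
  classical
  let Ξ : tauComm τ →ₗ[k] ({x // x ∈ insert (1 : E ⧸ scalarSub ρ) T} → k) :=
    { toFun := fun X t => B.repr X.1 t.1
      map_add' := by
        intro X Y
        ext t
        simp
      map_smul' := by
        intro c X
        ext t
        simp }
  have hinj : Function.Injective Ξ := by
    rw [← LinearMap.ker_eq_bot, LinearMap.ker_eq_bot']
    intro X hX
    have hall : ∀ t ∈ insert (1 : E ⧸ scalarSub ρ) T, B.repr X.1 t = 0 := by
      intro t ht
      exact congrFun hX ⟨t, ht⟩
    have hpow : ∀ (i : ℕ) (t : E ⧸ scalarSub ρ), B.repr X.1 t = 0 →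
        B.repr X.1 (((piPerm (map_alpha_scalar hd hM2)).toEquiv ^ i : Equiv.Perm _) t) = 0 := by
      intro i t ht
      induction i with
      | zero => simpa using ht
      | succ i ih =>
        rw [pow_succ', Equiv.Perm.mul_apply]
        obtain ⟨c, hc⟩ := coeff_relation hd hM2 B hB X.2
          (((piPerm (map_alpha_scalar hd hM2)).toEquiv ^ i : Equiv.Perm _) t)
        show B.repr X.1 ((piPerm (map_alpha_scalar hd hM2)) _) = 0
        rw [hc, ih, mul_zero]
    have hzero : ∀ s, B.repr X.1 s = 0 := by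
      intro s
      by_cases hs : s = 1
      · rw [hs]
        exact hall 1 (Finset.mem_insert_self _ _)
      · obtain ⟨i, t, ht, rfl⟩ := hT s hs
        exact hpow i t (hall t (Finset.mem_insert_of_mem ht))
    apply Subtype.ext
    have h0 : B.repr X.1 = 0 := by
      ext s
      exact hzero s
    refine B.repr.injective ?_
    show B.repr X.1 = B.repr 0
    rw [h0, map_zero]
  have h1 := LinearMap.finrank_le_finrank_of_injective hinj
  rw [Module.finrank_fintype_fun_eq_card, Fintype.card_coe, Finset.card_insert_of_notMem h1T] at h1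
  exact h1

/-- The lower bound for the commutant, given that `τ` has no eigenvalue `1`. -/
theorem sq_le_of_no_fixed (hM : (M : k) ≠ 0) (hτM : τ ^ M = 1) (hM2 : 2 ≤ M) (hno : ∀ w, τ w = w → w = 0) :
    Module.finrank k W ^ 2 ≤ (M - 1) * Module.finrank k (tauComm τ) := by
  classical
  set V : Set W := {w | w ≠ 0 ∧ ∃ c : k, τ w = c • w} with hV
  have hspan : (⊤ : Submodule k W) ≤ Submodule.span k V := by
    rw [← iSup_eigenspace_eq_top τ hM hτM]
    refine iSup_le fun c => ?_
    intro w hw
    by_cases hw0 : w = 0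
    · rw [hw0]
      exact Submodule.zero_mem _
    · exact Submodule.subset_span ⟨hw0, c, Module.End.mem_eigenspace_iff.mp hw⟩
  obtain ⟨b, hbV, hbspan, hbind⟩ := exists_linearIndependent k V
  rw [← hbspan] at hspan
  let B := Module.Basis.mk hbind (by simpa using hspan)
  have hBapply : ∀ i, B i = i.1 := fun i => Module.Basis.mk_apply hbind _ i
  haveI : Finite b := Module.Finite.finite_basis B
  haveI : Fintype b := Fintype.ofFinite b
  have hc : ∀ i : b, ∃ c : k, τ i.1 = c • i.1 := fun i => (hbV i.2).2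
  choose c hc using hc
  have hne : ∀ i, c i ≠ 1 := by
    intro i h
    have h1 := hc i
    rw [h, one_smul] at h1
    exact (hbV i.2).1 (hno _ h1)
  have hpow : ∀ i, c i ^ M = 1 := by
    intro i
    have h1 : ∀ n : ℕ, (τ ^ n) i.1 = c i ^ n • i.1 := by
      intro n
      induction n with
      | zero => simp
      | succ n ih =>
        rw [pow_succ', Module.End.mul_apply, ih, map_smul, hc, smul_smul, pow_succ]
    have h2 := h1 M
    rw [hτM, Module.End.one_apply] at h2
    have h3 : (c i ^ M - 1) • i.1 = 0 := by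
      rw [sub_smul, one_smul, ← h2, sub_self]
    rcases smul_eq_zero.mp h3 with h4 | h4
    · exact sub_eq_zero.mp h4
    · exact absurd h4 (hbV i.2).1
  -- the pairs of equal eigenvalue
  let P : Finset (b × b) := Finset.univ.filter (fun p => c p.1 = c p.2)
  -- a linear injection into the commutant
  let A : ({p // p ∈ P} → k) →ₗ[k] Matrix b b k :=
    { toFun := fun f => Matrix.of fun i j => if h : (i, j) ∈ P then f ⟨(i, j), h⟩ else 0
      map_add' := by
        intro f g
        ext i j
        simp only [Matrix.add_apply, Matrix.of_apply]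
        by_cases h : (i, j) ∈ P <;> simp [h]
      map_smul' := by
        intro r f
        ext i j
        simp only [Matrix.smul_apply, Matrix.of_apply, RingHom.id_apply]
        by_cases h : (i, j) ∈ P <;> simp [h] }
  have hAinj : Function.Injective A := by
    intro f g hfg
    ext ⟨⟨i, j⟩, h⟩
    have := congrFun (congrFun hfg i) j
    simpa [A, h] using this
  let L : ({p // p ∈ P} → k) →ₗ[k] Module.End k W := (Matrix.toLin B B).toLinearMap.comp A
  have hLinj : Function.Injective L := (Matrix.toLin B B).injective.comp hAinj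
  have hLmem : ∀ f, L f ∈ tauComm τ := by
    intro f
    refine B.ext fun j => ?_
    show τ (L f (B j)) = L f (τ (B j))
    have h1 : ∀ (j : b), τ (B j) = c j • B j := by
      intro j
      rw [hBapply]
      exact hc j
    rw [h1, map_smul]
    show τ (Matrix.toLin B B (A f) (B j)) = c j • Matrix.toLin B B (A f) (B j)
    rw [Matrix.toLin_self, map_sum, Finset.smul_sum]
    refine Finset.sum_congr rfl fun i _ => ?_
    rw [map_smul, h1, smul_smul, smul_smul]
    by_cases h : (i, j) ∈ P
    · have h2 : c i = c j := (Finset.mem_filter.mp h).2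
      rw [h2, mul_comm]
    · have h3 : A f i j = 0 := by simp [A, h]
      rw [h3]
      simp
  let L' : ({p // p ∈ P} → k) →ₗ[k] tauComm τ := L.codRestrict (tauComm τ) hLmem
  have hL'inj : Function.Injective L' := by
    intro f g hfg
    exact hLinj (congrArg Subtype.val hfg)
  have h1 := LinearMap.finrank_le_finrank_of_injective hL'inj
  rw [Module.finrank_fintype_fun_eq_card, Fintype.card_coe] at h1
  -- Cauchy--Schwarz
  let Cs : Finset k := Finset.univ.image c
  let m : k → ℕ := fun x => (Finset.univ.filter (fun i => c i = x)).card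
  have hd : Module.finrank k W = ∑ x ∈ Cs, m x := by
    rw [Module.finrank_eq_card_basis B, ← Finset.card_univ]
    exact Finset.card_eq_sum_card_image c Finset.univ
  have hP : P.card = ∑ x ∈ Cs, m x ^ 2 := by
    have h2 : P.card = ∑ x ∈ Cs, (P.filter (fun p => c p.1 = x)).card := by
      refine Finset.card_eq_sum_card_fiberwise ?_
      intro p _
      exact Finset.mem_coe.mpr (Finset.mem_image_of_mem c (Finset.mem_univ _))
    rw [h2]
    refine Finset.sum_congr rfl fun x _ => ?_
    have h3 : P.filter (fun p => c p.1 = x) =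
        (Finset.univ.filter (fun i => c i = x)) ×ˢ (Finset.univ.filter (fun i => c i = x)) := by
      ext ⟨i, j⟩
      simp only [P, Finset.mem_filter, Finset.mem_univ, true_and, Finset.mem_product]
      constructor
      · rintro ⟨h4, h5⟩
        exact ⟨h5, h4 ▸ h5⟩
      · rintro ⟨h4, h5⟩
        exact ⟨h4.trans h5.symm, h4⟩
    rw [h3, Finset.card_product, sq]
  have hCs : Cs.card ≤ M - 1 := by
    have hM0 : 0 < M := by omega
    have hsub : insert (1 : k) Cs ⊆ Polynomial.nthRootsFinset M (1 : k) := by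
      intro x hx
      rw [Polynomial.mem_nthRootsFinset hM0]
      rcases Finset.mem_insert.mp hx with rfl | hx
      · exact one_pow _
      · obtain ⟨i, _, rfl⟩ := Finset.mem_image.mp hx
        exact hpow i
    have h1Cs : (1 : k) ∉ Cs := by
      intro h
      obtain ⟨i, _, hi⟩ := Finset.mem_image.mp h
      exact hne i hi
    have h2 := Finset.card_le_card hsub
    rw [Finset.card_insert_of_notMem h1Cs] at h2
    have h3 : (Polynomial.nthRootsFinset M (1 : k)).card ≤ M := by
      refine (Multiset.toFinset_card_le _).trans ?_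
      exact Polynomial.card_nthRoots M 1
    omega
  have hCS := sq_sum_le_card_mul_sum_sq (s := Cs) (f := m)
  rw [hd]
  calc (∑ x ∈ Cs, m x) ^ 2 ≤ Cs.card * ∑ x ∈ Cs, m x ^ 2 := hCS
    _ ≤ (M - 1) * Module.finrank k (tauComm τ) := by
      rw [← hP]
      exact Nat.mul_le_mul hCs h1

/-- The irreducible case. -/
theorem hh_irr (hd : HHData ρ τ α M) (hM2 : 2 ≤ M)
    (hirr : ∀ U : Submodule k W, (∀ x, ∀ w ∈ U, ρ x w ∈ U) → (∀ w ∈ U, τ w ∈ U) → U = ⊥ ∨ U = ⊤) :
    (∃ w, w ≠ 0 ∧ τ w = w) ∨ ∃ d : ℕ, (scalarSub ρ).index = d ^ 2 ∧ d + 1 ≤ M ∧ M ∣ d ^ 2 - 1 := by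
  classical
  by_cases hfix : ∃ w, w ≠ 0 ∧ τ w = w
  · exact Or.inl hfix
  right
  have hno : ∀ w, τ w = w → w = 0 := by
    intro w hw
    by_contra h0
    exact hfix ⟨w, h0, hw⟩
  have hirrE := irr_of_irr hd hM2 hirr
  haveI : Fintype (E ⧸ scalarSub ρ) := Fintype.ofFinite _
  have hcard : Module.finrank k (Module.End k W) = Nat.card (E ⧸ scalarSub ρ) :=
    le_antisymm (finrank_le_card_quot hd hirrE) (card_quot_le hd)
  have hcard' : Fintype.card (E ⧸ scalarSub ρ) = Module.finrank k (Module.End k W) := by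
    rw [hcard, Nat.card_eq_fintype_card]
  let B := basisOfLinearIndependentOfCardEqFinrank (weyl_indep hd) hcard'
  have hB : ∀ s, B s = ρ (Quotient.out s) := fun s => by
    simp [B]
  obtain ⟨T, h1T, hT, hTcard⟩ := exists_reps hd hM2
  have hC := finrank_tauComm_le hd hM2 B hB T h1T hT
  have hS := sq_le_of_no_fixed hd.hM hd.hτM hM2 hno
  set d := Module.finrank k W with hd'
  have hEnd : Module.finrank k (Module.End k W) = d * d := by
    rw [hd']
    exact Module.finrank_linearMap k k W W
  have hsq : Nat.card (E ⧸ scalarSub ρ) = d ^ 2 := by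
    rw [← hcard, hEnd, sq]
  refine ⟨d, ?_, ?_, ?_⟩
  · rw [Subgroup.index, hsq]
  · -- arithmetic
    obtain ⟨m, rfl⟩ : ∃ m, M = m + 1 := ⟨M - 1, by omega⟩
    set t := T.card with ht
    have h1 : d ^ 2 = (m + 1) * t + 1 := by rw [← hsq, hTcard]
    have h2 : d ^ 2 ≤ m * (t + 1) := by
      refine hS.trans ?_
      have : m + 1 - 1 = m := by omega
      rw [this]
      exact Nat.mul_le_mul_left m hC
    have h3 : t + 1 ≤ m := by nlinarith
    have h4 : d ^ 2 ≤ m ^ 2 := by
      rw [h1]
      nlinarith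
    have h5 : d ≤ m := by
      exact (Nat.pow_le_pow_iff_left (by norm_num)).mp h4
    omega
  · rw [← hsq, ← hTcard]
    simp

/-- Restriction of a representation to a stable subspace. -/
def restrictRep (ρ : E →* Module.End k W) (U : Submodule k W) (h : ∀ x, ∀ w ∈ U, ρ x w ∈ U) :
    E →* Module.End k U where
  toFun x := (ρ x).restrict (h x)
  map_one' := by
    ext w
    simp
  map_mul' := by
    intro x y
    ext w
    simp

theorem restrictRep_apply (U : Submodule k W) (h : ∀ x, ∀ w ∈ U, ρ x w ∈ U) (x : E) (w : U) :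
    ((restrictRep ρ U h x w : U) : W) = ρ x w.1 := rfl

/-- The general case. -/
theorem hh_main (hd : HHData ρ τ α M) :
    (∃ w, w ≠ 0 ∧ τ w = w) ∨ ∃ d : ℕ, (scalarSub ρ).index = d ^ 2 ∧ d + 1 ≤ M ∧ M ∣ d ^ 2 - 1 := by
  classical
  have hM0 : M ≠ 0 := by
    rintro rfl
    exact hd.hM (by simp)
  by_cases hM1 : M = 1
  · left
    obtain ⟨w, hw⟩ := exists_ne (0 : W)
    refine ⟨w, hw, ?_⟩
    have := hd.hτM
    rw [hM1, pow_one] at this
    rw [this]
    rfl
  have hM2 : 2 ≤ M := by omega
  -- a minimal stable subspace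
  let SS : Set (Submodule k W) := {U | U ≠ ⊥ ∧ (∀ x, ∀ w ∈ U, ρ x w ∈ U) ∧ ∀ w ∈ U, τ w ∈ U}
  have hSS : SS.Nonempty := ⟨⊤, top_ne_bot, fun _ _ _ => Submodule.mem_top, fun _ _ => Submodule.mem_top⟩
  obtain ⟨U, ⟨hU0, hUρ, hUτ⟩, hUmin⟩ := wellFounded_lt.has_min SS hSS
  haveI : Nontrivial U := Submodule.nontrivial_iff_ne_bot.mpr hU0
  set ρU := restrictRep ρ U hUρ with hρU
  let τU : Module.End k U := τ.restrict hUτ
  obtain ⟨w₀, hw₀⟩ := exists_ne (0 : U)
  have hw₀' : (w₀ : W) ≠ 0 := fun h => hw₀ (Subtype.ext h)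
  have hscal : ∀ {f : Module.End k W} (hf : ∀ w ∈ U, f w ∈ U), IsScal f → IsScal (f.restrict hf) := by
    rintro f hf ⟨c, rfl⟩
    refine ⟨c, ?_⟩
    ext w
    simp
  -- commutation descends and lifts
  have hlift : ∀ x y, ρU x * ρU y = ρU y * ρU x → ρ x * ρ y = ρ y * ρ x := by
    intro x y h
    obtain ⟨e, he⟩ := hd.hcomm x y
    have h1 : ρ (x * y * x⁻¹ * y⁻¹) (w₀ : W) = w₀ := by
      have h2 : ρU (x * y * x⁻¹ * y⁻¹) = 1 := by
        rw [map_mul, map_mul, map_mul, h, mul_assoc, mul_assoc, ← mul_assoc (ρU x), ← map_mul,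
          mul_inv_cancel, map_one, one_mul, ← map_mul, mul_inv_cancel, map_one]
      have h3 := congrArg (fun f : Module.End k U => ((f w₀ : U) : W)) h2
      simpa [hρU, restrictRep_apply] using h3
    rw [he] at h1
    have h4 : (e - 1) • (w₀ : W) = 0 := by
      rw [sub_smul, one_smul]
      simp only [LinearMap.smul_apply, Module.End.one_apply] at h1
      rw [h1, sub_self]
    have he1 : e = 1 := by
      rcases smul_eq_zero.mp h4 with h5 | h5
      · exact sub_eq_zero.mp h5
      · exact absurd h5 hw₀'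
    rw [he1, one_smul] at he
    have h6 : x * y = (x * y * x⁻¹ * y⁻¹) * (y * x) := by group
    rw [← map_mul, h6, map_mul, he, one_mul, map_mul]
  have hscalU : ∀ x, IsScal (ρU x) → IsScal (ρ x) := by
    intro x hx
    refine hd.hrad x fun y => hlift x y ?_
    exact hx.comm
  have hscalD : ∀ x, IsScal (ρ x) → IsScal (ρU x) := fun x hx => hscal (hUρ x) hx
  have hdU : HHData ρU τU α M :=
    { hM := hd.hM
      hτM := by
        have h1 : ∀ n : ℕ, ∀ w : U, (((τU ^ n) w : U) : W) = (τ ^ n) (w : W) := by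
          intro n
          induction n with
          | zero => simp
          | succ n ih =>
            intro w
            rw [pow_succ', Module.End.mul_apply, pow_succ', Module.End.mul_apply, ← ih]
            rfl
        ext w
        rw [h1, hd.hτM]
        rfl
      hτρ := by
        intro x
        ext w
        have h1 := congrArg (fun f : Module.End k W => f (w : W)) (hd.hτρ x)
        exact h1
      hαM := hd.hαM
      hE := hd.hE
      hcomm := fun x y => hscalD _ (hd.hcomm x y)
      hrad := by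
        intro x hx
        exact hscalD x (hd.hrad x fun y => hlift x y (hx y))
      hfpf := by
        intro i hi x hx
        exact hscalD x (hd.hfpf i hi x (hscalU _ hx)) }
  have hsub : scalarSub ρU = scalarSub ρ := by
    ext x
    exact ⟨hscalU x, hscalD x⟩
  have hirr : ∀ U' : Submodule k U, (∀ x, ∀ w ∈ U', ρU x w ∈ U') → (∀ w ∈ U', τU w ∈ U') →
      U' = ⊥ ∨ U' = ⊤ := by
    intro U' h1 h2
    by_cases hU' : U' = ⊥
    · exact Or.inl hU'
    right
    set U'' : Submodule k W := U'.map U.subtype with hU''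
    have hle : U'' ≤ U := by
      rintro _ ⟨w, _, rfl⟩
      exact w.2
    have hne : U'' ≠ ⊥ := by
      intro h
      apply hU'
      rw [Submodule.eq_bot_iff]
      intro w hw
      have h3 : (w : W) ∈ U'' := ⟨w, hw, rfl⟩
      rw [h, Submodule.mem_bot] at h3
      exact Subtype.ext h3
    have hmem : U'' ∈ SS := by
      refine ⟨hne, ?_, ?_⟩
      · rintro x _ ⟨w, hw, rfl⟩
        exact ⟨_, h1 x w hw, rfl⟩
      · rintro _ ⟨w, hw, rfl⟩
        exact ⟨_, h2 w hw, rfl⟩
    have hUU : U'' = U := by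
      by_contra hcon
      exact hUmin U'' hmem (lt_of_le_of_ne hle hcon)
    rw [eq_top_iff]
    rintro w -
    have h3 : (w : W) ∈ U'' := by
      rw [hUU]
      exact w.2
    obtain ⟨v, hv, hvw⟩ := h3
    have : v = w := Subtype.ext hvw
    exact this ▸ hv
  rcases hh_irr hdU hM2 hirr with ⟨w, hw, hτw⟩ | ⟨d, h1, h2, h3⟩
  · left
    refine ⟨w, fun h => hw (Subtype.ext h), ?_⟩
    have := congrArg Subtype.val hτw
    exact this
  · right
    refine ⟨d, ?_, h2, h3⟩
    rw [← h1, hsub]

end Count

end Cfsg.Agent.Lib.ShultGross
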