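import Mathlib
import Cfsg.Agent.Lib.Ward.Weights
import Cfsg.Agent.Lib.ShultGross.Heis3
import Cfsg.Agent.Lib.Coprime.FrattiniAct
import Cfsg.Agent.Lib.PGroup.Basic

/-!
# Preliminaries for the key lemma on cyclic `p`-groups
-/

set_option autoImplicit false
set_option linter.unusedSectionVars false
set_option linter.style.haveILetI false
set_option linter.unusedVariables false

namespace Cfsg.Agent.Lib.ShultGross

open Cfsg.Agent.Lib.Ward

section NT

/-- The arithmetic of the exceptional case. -/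
theorem lte_bound {p : ℕ} (hp : p.Prime) (hp2 : p ≠ 2) {e j i D : ℕ} (he : 1 ≤ e) (hj : 1 ≤ j)
    (hpj : 2 ^ e + 1 = p ^ j) (hD : 1 ≤ D) (hdvd : p ^ (i + j) ∣ 2 ^ D - 1) :
    2 * e * p ^ i ≤ D := by
  haveI : Fact p.Prime := ⟨hp⟩
  have hmdvd : 2 ^ e + 1 ∣ 2 ^ D - 1 := by
    rw [hpj]
    exact (pow_dvd_pow p (by omega)).trans hdvd
  -- first step: `2e ∣ D`
  have h2e : 2 * e ∣ D := by
    have hD' := Nat.div_add_mod D (2 * e)
    set c := D / (2 * e)
    set t := D % (2 * e) with ht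
    have htlt : t < 2 * e := Nat.mod_lt _ (by omega)
    have hmod : ∀ n : ℕ, 2 ^ (2 * e * n) ≡ 1 [MOD 2 ^ e + 1] := by
      intro n
      have h1 : 2 ^ (2 * e) ≡ 1 [MOD 2 ^ e + 1] := by
        have h2 : (2 ^ (2 * e) : ℕ) = (2 ^ e - 1) * (2 ^ e + 1) + 1 := by
          have h3 : 1 ≤ 2 ^ e := Nat.one_le_two_pow
          obtain ⟨x, hx⟩ : ∃ x, 2 ^ e = x + 1 := ⟨2 ^ e - 1, by omega⟩
          rw [two_mul, pow_add, hx]
          simp
          ring
        rw [h2]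
        simp [Nat.ModEq]
      calc 2 ^ (2 * e * n) = (2 ^ (2 * e)) ^ n := by rw [pow_mul]
        _ ≡ 1 ^ n [MOD 2 ^ e + 1] := h1.pow n
        _ = 1 := one_pow n
    have h1 : 2 ^ D ≡ 1 [MOD 2 ^ e + 1] := by
      have h4 : 1 ≤ 2 ^ D := Nat.one_le_two_pow
      exact ((Nat.modEq_iff_dvd' h4).mpr hmdvd).symm
    have h2 : 2 ^ t ≡ 1 [MOD 2 ^ e + 1] := by
      have h3 : 2 ^ D = 2 ^ (2 * e * c) * 2 ^ t := by
        rw [← pow_add, hD']
      have h5 : 2 ^ (2 * e * c) * 2 ^ t ≡ 1 * 2 ^ t [MOD 2 ^ e + 1] := (hmod c).mul_right _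
      rw [← h3, one_mul] at h5
      exact h5.symm.trans h1
    by_cases ht0 : t = 0
    · exact Nat.dvd_of_mod_eq_zero ht0
    exfalso
    have hbig : 2 ^ t - 1 = 0 ∨ 2 ^ e + 1 ≤ 2 ^ t - 1 := by
      have h3 : 2 ^ e + 1 ∣ 2 ^ t - 1 := (Nat.modEq_iff_dvd' Nat.one_le_two_pow).mp h2.symm
      rcases Nat.eq_zero_or_pos (2 ^ t - 1) with h | h
      · exact Or.inl h
      · exact Or.inr (Nat.le_of_dvd h h3)
    have hpos : 2 ^ t - 1 ≠ 0 := by
      have : 2 ≤ 2 ^ t := by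
        calc 2 = 2 ^ 1 := rfl
          _ ≤ 2 ^ t := Nat.pow_le_pow_right (by norm_num) (by omega)
      omega
    have hgt : e < t := by
      rcases hbig with h | h
      · exact absurd h hpos
      · by_contra hle
        push Not at hle
        have : 2 ^ t ≤ 2 ^ e := Nat.pow_le_pow_right (by norm_num) hle
        omega
    -- now `t = e + u`, `0 < u < e` or `u = 0`: then `2 ^ t ≡ - 2 ^ u`
    obtain ⟨u, hu⟩ : ∃ u, t = e + u := ⟨t - e, by omega⟩
    have hu' : u < e := by omega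
    have h3 : 2 ^ e + 1 ∣ 2 ^ u + 1 := by
      have h4 : 2 ^ t = 2 ^ e * 2 ^ u := by rw [hu, pow_add]
      have h5 : 2 ^ t + 2 ^ u = (2 ^ e + 1) * 2 ^ u := by rw [h4]; ring
      have h6 : 2 ^ e + 1 ∣ 2 ^ t - 1 := (Nat.modEq_iff_dvd' Nat.one_le_two_pow).mp h2.symm
      have h7 : 2 ^ u + 1 = (2 ^ e + 1) * 2 ^ u - (2 ^ t - 1) := by
        have key : ∀ A T U : ℕ, T + U = A → 1 ≤ T → U + 1 = A - (T - 1) := by
          intros
          omega
        exact key _ _ _ h5 Nat.one_le_two_pow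
      rw [h7]
      exact Nat.dvd_sub (Dvd.intro _ rfl) h6
    have h4 := Nat.le_of_dvd (Nat.succ_pos _) h3
    have h5 : 2 ^ u < 2 ^ e := Nat.pow_lt_pow_right (by norm_num) hu'
    exact absurd h5 (not_lt.mpr (Nat.le_of_succ_le_succ h4))
  obtain ⟨D', rfl⟩ := h2e
  have hD'0 : D' ≠ 0 := by
    rintro rfl
    simp at hD
  -- second step: lifting the exponent
  have hp1 : p ∣ 2 ^ e + 1 := by
    rw [hpj]
    exact dvd_pow_self p (by omega)
  have hx : 2 ^ (2 * e) = (2 ^ e - 1) * (2 ^ e + 1) + 1 := by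
    have h3 : 1 ≤ 2 ^ e := Nat.one_le_two_pow
    obtain ⟨x, hx⟩ : ∃ x, 2 ^ e = x + 1 := ⟨2 ^ e - 1, by omega⟩
    rw [two_mul, pow_add, hx]
    simp
    ring
  have hxsub : 2 ^ (2 * e) - 1 = (2 ^ e - 1) * (2 ^ e + 1) := by omega
  have hpnd : ¬ p ∣ 2 ^ e - 1 := by
    intro h
    have h1 : p ∣ (2 ^ e + 1) - (2 ^ e - 1) := Nat.dvd_sub hp1 h
    have h2 : (2 ^ e + 1) - (2 ^ e - 1) = 2 := by
      have : 1 ≤ 2 ^ e := Nat.one_le_two_pow
      omega
    rw [h2] at h1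
    exact hp2 ((Nat.prime_dvd_prime_iff_eq hp Nat.prime_two).mp h1)
  have hval1 : padicValNat p (2 ^ (2 * e) - 1) = j := by
    rw [hxsub, padicValNat.mul, hpj, padicValNat.prime_pow]
    · rw [padicValNat.eq_zero_of_not_dvd hpnd, zero_add]
    · intro h
      have h1 : 2 ^ e = 1 := by
        have : 1 ≤ 2 ^ e := Nat.one_le_two_pow
        omega
      have h2 : 2 ≤ 2 ^ e := by
        calc 2 = 2 ^ 1 := rfl
          _ ≤ 2 ^ e := Nat.pow_le_pow_right (by norm_num) he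
      omega
    · rw [hpj]
      exact pow_ne_zero _ hp.ne_zero
  have hlte : padicValNat p ((2 ^ (2 * e)) ^ D' - 1 ^ D') =
      padicValNat p (2 ^ (2 * e) - 1) + padicValNat p D' := by
    have hodd : Odd p := hp.odd_of_ne_two hp2
    refine padicValNat.pow_sub_pow hodd ?_ ?_ ?_ hD'0
    · have : 2 ≤ 2 ^ (2 * e) := by
        calc 2 = 2 ^ 1 := rfl
          _ ≤ 2 ^ (2 * e) := Nat.pow_le_pow_right (by norm_num) (by omega)
      omega
    · rw [hxsub]
      exact Dvd.dvd.mul_left hp1 _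
    · intro h
      exact hp2 ((Nat.prime_dvd_prime_iff_eq hp Nat.prime_two).mp (hp.dvd_of_dvd_pow h))
  rw [one_pow, ← pow_mul, hval1] at hlte
  have hne0 : 2 ^ (2 * e * D') - 1 ≠ 0 := by
    have : 2 ≤ 2 ^ (2 * e * D') := by
      calc 2 = 2 ^ 1 := rfl
        _ ≤ 2 ^ (2 * e * D') := Nat.pow_le_pow_right (by norm_num) hD
    omega
  have h5 : i + j ≤ padicValNat p (2 ^ (2 * e * D') - 1) :=
    (padicValNat_dvd_iff_le hne0).mp hdvd
  rw [hlte] at h5
  have h6 : i ≤ padicValNat p D' := by omega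
  have h7 : p ^ i ∣ D' := (padicValNat_dvd_iff_le hD'0).mpr h6
  exact Nat.mul_le_mul_left _ (Nat.le_of_dvd (Nat.pos_of_ne_zero hD'0) h7)

end NT

section Groups

variable {Y : Type*} [Group Y]

/-- The period of an element relative to a subgroup. -/
theorem exists_period (S : Subgroup Y) (a : Y) {P : ℕ} (hP : 0 < P) (haP : a ^ P = 1) :
    ∃ N, 0 < N ∧ N ∣ P ∧ ∀ j : ℕ, a ^ j ∈ S ↔ N ∣ j := by
  classical
  have hex : ∃ j, 0 < j ∧ a ^ j ∈ S := ⟨P, hP, by rw [haP]; exact S.one_mem⟩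
  set N := Nat.find hex with hN
  obtain ⟨hN0, hNS⟩ := Nat.find_spec hex
  have key : ∀ j : ℕ, a ^ j ∈ S ↔ N ∣ j := by
    intro j
    constructor
    · intro hj
      have h1 := Nat.div_add_mod j N
      have hr : j % N < N := Nat.mod_lt _ hN0
      by_contra hnd
      have hr0 : 0 < j % N := Nat.pos_of_ne_zero fun h => hnd (Nat.dvd_of_mod_eq_zero h)
      have h2 : a ^ j = (a ^ N) ^ (j / N) * a ^ (j % N) := by
        rw [← pow_mul, ← pow_add, h1]
      have h3 : a ^ (j % N) ∈ S := by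
        have h4 : a ^ (j % N) = ((a ^ N) ^ (j / N))⁻¹ * a ^ j := by
          rw [h2, inv_mul_cancel_left]
        rw [h4]
        exact S.mul_mem (S.inv_mem (S.pow_mem hNS _)) hj
      exact Nat.find_min hex hr ⟨hr0, h3⟩
    · rintro ⟨t, rfl⟩
      rw [pow_mul]
      exact S.pow_mem hNS _
  refine ⟨N, hN0, ?_, key⟩
  exact (key P).mp (by rw [haP]; exact S.one_mem)

/-- In a cyclic `p`-group, every nontrivial subgroup contains the subgroup of order `p`. -/
theorem pow_mem_zpowers_pow {p n : ℕ} (hp : p.Prime) {a : Y} (ha : a ^ p ^ (n + 1) = 1) {j : ℕ}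
    (hj : ¬ p ^ (n + 1) ∣ j) : a ^ p ^ n ∈ Subgroup.zpowers (a ^ j) := by
  set g := Nat.gcd j (p ^ (n + 1)) with hg
  obtain ⟨e, he, hge⟩ := (Nat.dvd_prime_pow hp).mp (Nat.gcd_dvd_right j (p ^ (n + 1)))
  have hge' : g = p ^ e := hge
  have he' : e ≤ n := by
    by_contra hcon
    have : e = n + 1 := by omega
    apply hj
    have h1 : g ∣ j := Nat.gcd_dvd_left j (p ^ (n + 1))
    rwa [hge', this] at h1
  have h1 : ((g : ℕ) : ℤ) = j * Nat.gcdA j (p ^ (n + 1)) + (p ^ (n + 1) : ℕ) * Nat.gcdB j (p ^ (n + 1)) :=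
    Nat.gcd_eq_gcd_ab j (p ^ (n + 1))
  have h2 : a ^ g = (a ^ j) ^ Nat.gcdA j (p ^ (n + 1)) := by
    rw [← zpow_natCast a g, h1, zpow_add, zpow_mul, zpow_mul, zpow_natCast, zpow_natCast, ha]
    simp
  have h3 : a ^ p ^ n = (a ^ g) ^ p ^ (n - e) := by
    rw [← pow_mul, hge', ← pow_add]
    congr 2
    omega
  rw [h3, h2]
  exact Subgroup.pow_mem _ (Subgroup.zpow_mem _ (Subgroup.mem_zpowers _) _) _

/-- A one-sided invariance suffices for an element of finite order. -/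
theorem mem_norm_of_conj_pow {S : Subgroup Y} {a : Y} {P : ℕ} (hP : 0 < P) (ha : a ^ P = 1)
    (h : ∀ x ∈ S, a * x * a⁻¹ ∈ S) : a ∈ Subgroup.normalizer (S : Set Y) := by
  have h1 : ∀ i : ℕ, ∀ x ∈ S, a ^ i * x * (a ^ i)⁻¹ ∈ S := by
    intro i
    induction i with
    | zero => simp
    | succ i ih =>
      intro x hx
      have e : a ^ (i + 1) * x * (a ^ (i + 1))⁻¹ = a * (a ^ i * x * (a ^ i)⁻¹) * a⁻¹ := by
        rw [pow_succ']
        group
      rw [e]
      exact h _ (ih x hx)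
  refine mem_norm_of_conj h fun x hx => ?_
  have h2 := h1 (P - 1) x hx
  have h3 : a ^ (P - 1) = a⁻¹ := by
    have h4 : a ^ (P - 1) * a = 1 := by
      rw [← pow_succ]
      have : P - 1 + 1 = P := by omega
      rw [this, ha]
    exact eq_inv_of_mul_eq_one_left h4
  rw [h3] at h2
  simpa using h2

theorem relIndex_inf_finset_le {ι : Type*} [DecidableEq ι] (s : Finset ι) (H : ι → Subgroup Y) (L : Subgroup Y) :
    (s.inf H).relIndex L ≤ ∏ i ∈ s, (H i).relIndex L := by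
  induction s using Finset.induction_on with
  | empty => simp
  | insert a s ha ih =>
    rw [Finset.inf_insert, Finset.prod_insert ha]
    exact Subgroup.relIndex_inf_le.trans (Nat.mul_le_mul_left _ ih)

end Groups

section Weights

variable {Y : Type*} [Group Y] {k : Type*} [Field k] {W : Type*} [AddCommGroup W] [Module k W]

theorem orbit_sum_ne {ρ : Y →* Module.End k W} {L : Subgroup Y} {θ : Y → k} {u : W} {x : Y}
    (hxL : x ∈ Subgroup.normalizer (L : Set Y)) (hu : IsWt ρ L θ u) (hu0 : u ≠ 0) {N : ℕ} (hN : 0 < N)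
    (hns : ∀ j : ℕ, 0 < j → j < N → x ^ j ∉ wtStab L θ) :
    ∑ j ∈ Finset.range N, ρ (x ^ j) u ≠ 0 := by
  intro hs
  have hmK : ∀ m : ℕ, x ^ m ∈ Subgroup.normalizer (L : Set Y) := fun m => pow_mem hxL m
  have key : ∀ i j : ℕ, i < j → j < N → ∃ y ∈ L, wtConj (x ^ i) θ y ≠ wtConj (x ^ j) θ y := by
    intro i j hij hjN
    by_contra hcon
    push Not at hcon
    obtain ⟨m, rfl⟩ : ∃ m, j = i + m := ⟨j - i, by omega⟩
    refine hns m (by omega) (by omega) ⟨hmK m, fun y hy => ?_⟩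
    have hy' : x ^ i * y * (x ^ i)⁻¹ ∈ L := conj_mem_of_norm le_rfl (hmK i) hy
    have := hcon _ hy'
    simp only [wtConj] at this
    have e1 : (x ^ i)⁻¹ * (x ^ i * y * (x ^ i)⁻¹) * x ^ i = y := by group
    have e2 : (x ^ (i + m))⁻¹ * (x ^ i * y * (x ^ i)⁻¹) * x ^ (i + m) = (x ^ m)⁻¹ * y * x ^ m := by
      rw [pow_add]; group
    rw [e1, e2] at this
    exact this.symm
  have hdist : ∀ i ∈ Finset.range N, ∀ j ∈ Finset.range N, i ≠ j →
      ∃ y ∈ L, wtConj (x ^ i) θ y ≠ wtConj (x ^ j) θ y := by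
    intro i hi j hj hij
    rw [Finset.mem_range] at hi hj
    rcases lt_or_gt_of_ne hij with h | h
    · exact key i j h hj
    · obtain ⟨y, hy, hne'⟩ := key j i h hi
      exact ⟨y, hy, hne'.symm⟩
  have hxK' : ∀ i : ℕ, ∀ y ∈ L, (x ^ i)⁻¹ * y * x ^ i ∈ L := fun i y hy =>
    conj_inv_mem_of_norm le_rfl (hmK i) hy
  have := eq_zero_of_sum_eq_zero (ρ := ρ) (K := L) (Finset.range N) (fun i => wtConj (x ^ i) θ)
    hdist (fun i => ρ (x ^ i) u) (fun i _ => hu.conj (hxK' i)) hs 0 (Finset.mem_range.mpr hN)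
  apply hu0
  simpa [rho_one_apply] using this

theorem orbit_sum_fixed' (ρ : Y →* Module.End k W) {x : Y} {N : ℕ} {u : W} (hu : ρ (x ^ N) u = u) :
    ρ x (∑ j ∈ Finset.range N, ρ (x ^ j) u) = ∑ j ∈ Finset.range N, ρ (x ^ j) u := by
  rw [map_sum]
  have h1 : ∀ j, ρ x (ρ (x ^ j) u) = ρ (x ^ (j + 1)) u := fun j => by
    rw [← rho_mul_apply, pow_succ']
  simp only [h1]
  have h2 := Finset.sum_range_succ (fun j => ρ (x ^ j) u) N
  have h3 := Finset.sum_range_succ' (fun j => ρ (x ^ j) u) N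
  rw [h2] at h3
  simp only [pow_zero, rho_one_apply, hu] at h3
  exact (add_right_cancel h3).symm

end Weights

end Cfsg.Agent.Lib.ShultGross
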