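import Mathlib
import Cfsg.Agent.Lib.ShultGross.Key0
import Cfsg.Agent.Lib.Components.Fitting

/-!
# The critical subgroup `R` of the key lemma
-/

set_option autoImplicit false
set_option linter.unusedSectionVars false
set_option linter.style.haveILetI false
set_option linter.unusedVariables false

namespace Cfsg.Agent.Lib.ShultGross

open Cfsg.Agent.Lib.Ward
open scoped commutatorElement

universe u

variable {Y : Type*} [Group Y] {k : Type*} [Field k] {W : Type*} [AddCommGroup W] [Module k W]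

/-- The hypotheses of the key lemma. -/
structure KeySetup (ρ : Y →* Module.End k W) (a : Y) (p n q : ℕ) (Q : Subgroup Y) : Prop where
  hp : p.Prime
  hp2 : p ≠ 2
  ha : orderOf a = p ^ (n + 1)
  hq : q.Prime
  hpq : p ≠ q
  hQ : IsPGroup q Q
  haQ : a ∈ Subgroup.normalizer (Q : Set Y)
  hfix : ∀ x ∈ Q, a * x * a⁻¹ = x → x = 1
  hpk : (p : k) ≠ 0
  hqk : (q : k) ≠ 0
  hW : ∀ w, ρ a w = w → w = 0

/-- The critical data. -/
structure Crit (ρ : Y →* Module.End k W) (a : Y) (p n : ℕ) (R K : Subgroup Y) : Prop where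
  haR : a ∈ Subgroup.normalizer (R : Set Y)
  hKR : K ≤ R
  haK : a ∈ Subgroup.normalizer (K : Set Y)
  hKdef : ∀ x ∈ R, (x ∈ K ↔ ρ x * ρ (a ^ p ^ n) = ρ (a ^ p ^ n) * ρ x)
  hne : K ≠ R
  hmax : ∀ D : Subgroup Y, D ≤ R → a ∈ Subgroup.normalizer (D : Set Y) → D ≠ R → D ≤ K
  hcomm : ∀ x ∈ R, ∀ y ∈ R, x * y * x⁻¹ * y⁻¹ ∈ K
  hgen : R ≤ Subgroup.closure {t | ∃ x ∈ R, t = x⁻¹ * (a ^ p ^ n * x * (a ^ p ^ n)⁻¹)}
  hcentral : ∀ x ∈ R, ∀ y ∈ K, ρ x * ρ y = ρ y * ρ x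
  hfree : ∀ j : ℕ, ¬ p ^ (n + 1) ∣ j → ∀ x ∈ R, x⁻¹ * (a ^ j * x * (a ^ j)⁻¹) ∈ K → x ∈ K

/-- The elements whose image commutes with that of `c`. -/
def commSub (ρ : Y →* Module.End k W) (R : Subgroup Y) (c : Y) : Subgroup Y where
  carrier := {x | x ∈ R ∧ ρ x * ρ c = ρ c * ρ x}
  mul_mem' := by
    rintro x y ⟨hx, hx2⟩ ⟨hy, hy2⟩
    refine ⟨R.mul_mem hx hy, ?_⟩
    rw [map_mul, mul_assoc, hy2, ← mul_assoc, hx2, mul_assoc]
  one_mem' := ⟨R.one_mem, by simp⟩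
  inv_mem' := by
    rintro x ⟨hx, hx2⟩
    refine ⟨R.inv_mem hx, ?_⟩
    have h1 : ρ x⁻¹ * ρ x = 1 := by rw [← map_mul, inv_mul_cancel, map_one]
    have h2 : ρ x * ρ x⁻¹ = 1 := by rw [← map_mul, mul_inv_cancel, map_one]
    calc ρ x⁻¹ * ρ c = ρ x⁻¹ * ρ c * (ρ x * ρ x⁻¹) := by rw [h2, mul_one]
      _ = ρ x⁻¹ * (ρ c * ρ x) * ρ x⁻¹ := by simp only [mul_assoc]
      _ = ρ x⁻¹ * (ρ x * ρ c) * ρ x⁻¹ := by rw [hx2]
      _ = ρ c * ρ x⁻¹ := by rw [← mul_assoc, h1, one_mul]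

theorem mem_commSub {ρ : Y →* Module.End k W} {R : Subgroup Y} {c x : Y} :
    x ∈ commSub ρ R c ↔ x ∈ R ∧ ρ x * ρ c = ρ c * ρ x := Iff.rfl

theorem t_rho_one_iff (ρ : Y →* Module.End k W) (x c : Y) :
    ρ (x⁻¹ * (c * x * c⁻¹)) = 1 ↔ ρ x * ρ c = ρ c * ρ x := by
  have h1 : ∀ g : Y, ρ g * ρ g⁻¹ = 1 := fun g => by rw [← map_mul, mul_inv_cancel, map_one]
  have h2 : ∀ g : Y, ρ g⁻¹ * ρ g = 1 := fun g => by rw [← map_mul, inv_mul_cancel, map_one]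
  constructor
  · intro h
    have e : ρ c * ρ x = ρ x * (ρ (x⁻¹ * (c * x * c⁻¹))) * ρ c := by
      simp only [map_mul, mul_assoc, h2, mul_one]
      rw [← mul_assoc, h1, one_mul]
    rw [e, h, mul_one]
  · intro h
    simp only [map_mul]
    rw [← h]
    simp only [mul_assoc]
    rw [h1, mul_one, h2]

theorem conj_mem_commSub {ρ : Y →* Module.End k W} {R : Subgroup Y} {c g x : Y} (hgc : g * c = c * g)
    (hgR : ∀ x ∈ R, g * x * g⁻¹ ∈ R) (hx : x ∈ commSub ρ R c) : g * x * g⁻¹ ∈ commSub ρ R c := by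
  obtain ⟨hx1, hx2⟩ := hx
  refine ⟨hgR x hx1, ?_⟩
  have hg' : g⁻¹ * c = c * g⁻¹ := by
    calc g⁻¹ * c = g⁻¹ * (c * g) * g⁻¹ := by group
      _ = g⁻¹ * (g * c) * g⁻¹ := by rw [hgc]
      _ = c * g⁻¹ := by group
  rw [← map_mul, ← map_mul]
  have e1 : g * x * g⁻¹ * c = g * (x * c) * g⁻¹ := by
    simp only [mul_assoc, hg']
  have e2 : c * (g * x * g⁻¹) = g * (c * x) * g⁻¹ := by
    rw [← mul_assoc, ← mul_assoc, ← hgc]
    simp only [mul_assoc]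
  rw [e1, e2]
  simp only [map_mul]
  rw [hx2]

open Cfsg.Agent.Lib.Components.Fitting in
/-- Existence of the critical data. -/
theorem exists_crit [Finite Y] {ρ : Y →* Module.End k W} {a : Y} {p n q : ℕ} {Q : Subgroup Y}
    (S : KeySetup ρ a p n q Q) (hcon : ∃ x ∈ Q, ρ x * ρ (a ^ p ^ n) ≠ ρ (a ^ p ^ n) * ρ x) :
    ∃ R K : Subgroup Y, R ≤ Q ∧ Crit ρ a p n R K := by
  classical
  haveI : Fact q.Prime := ⟨S.hq⟩
  set ω := a ^ p ^ n with hω
  have hap : a ^ p ^ (n + 1) = 1 := by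
    rw [← S.ha]
    exact pow_orderOf_eq_one a
  have hP0 : 0 < p ^ (n + 1) := pow_pos S.hp.pos _
  have hωp : ω ^ p = 1 := by
    rw [hω, ← pow_mul, ← pow_succ, hap]
  have hac : a * ω = ω * a := by
    rw [hω]
    exact (Commute.pow_right (Commute.refl a) _)
  have haci : a⁻¹ * ω = ω * a⁻¹ := by
    calc a⁻¹ * ω = a⁻¹ * (ω * a) * a⁻¹ := by group
      _ = a⁻¹ * (a * ω) * a⁻¹ := by rw [hac]
      _ = ω * a⁻¹ := by group
  -- the minimal subgroup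
  let SS : Set (Subgroup Y) := {R | R ≤ Q ∧ a ∈ Subgroup.normalizer (R : Set Y) ∧
    ∃ x ∈ R, ρ x * ρ ω ≠ ρ ω * ρ x}
  have hSS : SS.Nonempty := ⟨Q, le_rfl, S.haQ, hcon⟩
  obtain ⟨R, ⟨hRQ, haR, hx₀⟩, hRmin⟩ := wellFounded_lt.has_min SS hSS
  have hωR : ω ∈ Subgroup.normalizer (R : Set Y) := pow_mem haR _
  have hRp : IsPGroup q R := S.hQ.to_le hRQ
  set K := commSub ρ R ω with hK
  have hKR : K ≤ R := fun x hx => hx.1
  have hKdef : ∀ x ∈ R, (x ∈ K ↔ ρ x * ρ ω = ρ ω * ρ x) := fun x hx =>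
    ⟨fun h => h.2, fun h => ⟨hx, h⟩⟩
  have haK : a ∈ Subgroup.normalizer (K : Set Y) := by
    refine mem_norm_of_conj (fun x hx => conj_mem_commSub hac (fun y hy => conj_mem_of_norm le_rfl haR hy) hx) ?_
    intro x hx
    have := conj_mem_commSub (g := a⁻¹) haci (fun y hy => by
      simpa using conj_inv_mem_of_norm le_rfl haR hy) hx
    simpa using this
  obtain ⟨x₀, hx₀R, hx₀ne⟩ := hx₀
  have hne : K ≠ R := by
    intro h
    have : x₀ ∈ K := h ▸ hx₀R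
    exact hx₀ne this.2
  have hmax : ∀ D : Subgroup Y, D ≤ R → a ∈ Subgroup.normalizer (D : Set Y) → D ≠ R → D ≤ K := by
    intro D hDR haD hDne x hx
    refine ⟨hDR hx, ?_⟩
    by_contra hcom
    exact hRmin D ⟨hDR.trans hRQ, haD, x, hx, hcom⟩ (lt_of_le_of_ne hDR hDne)
  -- commutators
  have hRne : R ≠ ⊥ := by
    intro h
    rw [h, Subgroup.mem_bot] at hx₀R
    apply hx₀ne
    rw [hx₀R]
    simp
  have hRsolv : Group.IsSolvable R := by
    haveI := hRp.isNilpotent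
    infer_instance
  have hcommlt := commutator_lt_of_solvable hRne hRsolv
  have hcommK : ⁅R, R⁆ ≤ K := by
    refine hmax _ hcommlt.le (normalizer_le_normalizer_commutator R haR) hcommlt.ne
  have hcomm : ∀ x ∈ R, ∀ y ∈ R, x * y * x⁻¹ * y⁻¹ ∈ K := fun x hx y hy =>
    hcommK (Subgroup.commutator_mem_commutator hx hy)
  have hKn : ∀ x ∈ R, ∀ y ∈ K, x * y * x⁻¹ ∈ K := by
    intro x hx y hy
    have h1 := K.mul_mem (hcomm x hx y (hKR hy)) hy
    simpa using h1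
  -- the generators
  let gens : Set Y := {t | ∃ x ∈ R, t = x⁻¹ * (ω * x * ω⁻¹)}
  have hgensR : gens ⊆ R := by
    rintro _ ⟨x, hx, rfl⟩
    exact R.mul_mem (R.inv_mem hx) (conj_mem_of_norm le_rfl hωR hx)
  have hconj_t : ∀ x : Y, a * (x⁻¹ * (ω * x * ω⁻¹)) * a⁻¹ =
      (a * x * a⁻¹)⁻¹ * (ω * (a * x * a⁻¹) * ω⁻¹) := by
    intro x
    have e1 : ω * a = a * ω := hac.symm
    have e2 : ω⁻¹ * a = a * ω⁻¹ := by
      calc ω⁻¹ * a = ω⁻¹ * (a * ω) * ω⁻¹ := by group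
        _ = ω⁻¹ * (ω * a) * ω⁻¹ := by rw [hac]
        _ = a * ω⁻¹ := by group
    have e3 : a⁻¹ * ω = ω * a⁻¹ := haci
    calc a * (x⁻¹ * (ω * x * ω⁻¹)) * a⁻¹ = a * x⁻¹ * a⁻¹ * (a * ω) * x * ω⁻¹ * a⁻¹ := by group
      _ = a * x⁻¹ * a⁻¹ * (ω * a) * x * (ω⁻¹ * a⁻¹) := by rw [hac]; group
      _ = (a * x * a⁻¹)⁻¹ * (ω * (a * x * a⁻¹) * ω⁻¹) := by
        have e4 : ω⁻¹ * a⁻¹ = a⁻¹ * ω⁻¹ := by
          calc ω⁻¹ * a⁻¹ = ω⁻¹ * (a⁻¹ * ω) * ω⁻¹ := by group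
            _ = ω⁻¹ * (ω * a⁻¹) * ω⁻¹ := by rw [e3]
            _ = a⁻¹ * ω⁻¹ := by group
        rw [e4]
        group
  have hD₁a : a ∈ Subgroup.normalizer ((Subgroup.closure gens : Subgroup Y) : Set Y) := by
    refine mem_norm_of_conj_pow hP0 hap ?_
    intro x hx
    induction hx using Subgroup.closure_induction with
    | mem x hx =>
      obtain ⟨y, hy, rfl⟩ := hx
      rw [hconj_t]
      exact Subgroup.subset_closure ⟨_, conj_mem_of_norm le_rfl haR hy, rfl⟩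
    | one => simp
    | mul x y _ _ hx hy =>
      have e : a * (x * y) * a⁻¹ = (a * x * a⁻¹) * (a * y * a⁻¹) := by group
      rw [e]
      exact Subgroup.mul_mem _ hx hy
    | inv x _ hx =>
      have e : a * x⁻¹ * a⁻¹ = (a * x * a⁻¹)⁻¹ := by group
      rw [e]
      exact Subgroup.inv_mem _ hx
  have hD₁R : Subgroup.closure gens ≤ R := (Subgroup.closure_le _).mpr hgensR
  -- a unit-valued version of `ρ`
  let ρu : Y →* (Module.End k W)ˣ := ρ.toHomUnits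
  have hρu : ∀ g, ((ρu g : (Module.End k W)ˣ) : Module.End k W) = ρ g := fun g => rfl
  have hgen : R ≤ Subgroup.closure gens := by
    by_contra hnle
    have hD₁ne : Subgroup.closure gens ≠ R := fun h => hnle h.ge
    have hD₁K := hmax _ hD₁R hD₁a hD₁ne
    apply hne
    refine le_antisymm hKR fun x hx => ?_
    set t := x⁻¹ * (ω * x * ω⁻¹) with ht
    have htK : t ∈ K := hD₁K (Subgroup.subset_closure ⟨x, hx, rfl⟩)
    have htR : t ∈ R := hKR htK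
    have hcomt : Commute (ρu t) (ρu ω) := Units.ext htK.2
    have h1 : x⁻¹ * ω * x = t * ω := by
      rw [ht]
      group
    have h2 : (ρu t) ^ p = 1 := by
      have h3 : (ρu (t * ω)) ^ p = 1 := by
        rw [← map_pow, ← h1]
        have e : (x⁻¹ * ω * x) ^ p = x⁻¹ * ω ^ p * x := by
          have := conj_pow (a := x⁻¹) (b := ω) (i := p)
          simpa using this
        rw [e, hωp]
        simp
      rw [map_mul, hcomt.mul_pow, ← map_pow ρu ω, hωp, map_one, mul_one] at h3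
      exact h3
    obtain ⟨m, hm⟩ := (IsPGroup.iff_orderOf.mp hRp) ⟨t, htR⟩
    have h4 : t ^ q ^ m = 1 := by
      have := pow_orderOf_eq_one (⟨t, htR⟩ : R)
      rw [hm] at this
      simpa using congrArg Subtype.val this
    have h5 : (ρu t) ^ q ^ m = 1 := by
      rw [← map_pow, h4, map_one]
    have hgcd : Nat.gcd p (q ^ m) = 1 :=
      Nat.Coprime.pow_right m ((Nat.coprime_primes S.hp S.hq).mpr S.hpq)
    have h6 : ρu t = 1 := by
      have h7 := (pow_gcd_eq_one (a := ρu t) (m := p) (n := q ^ m)).mpr ⟨h2, h5⟩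
      rwa [hgcd, pow_one] at h7
    have h8 : ρ t = 1 := by
      rw [← hρu, h6]
      rfl
    exact ⟨hx, (t_rho_one_iff ρ x ω).mp h8⟩
  -- `K` is central in the image of `R`
  have hcentral : ∀ x ∈ R, ∀ y ∈ K, ρ x * ρ y = ρ y * ρ x := by
    let H₁ : Subgroup (Module.End k W)ˣ := R.map ρu
    let H₂ : Subgroup (Module.End k W)ˣ := Subgroup.zpowers (ρu ω)
    let H₃ : Subgroup (Module.End k W)ˣ := K.map ρu
    have h23 : ⁅H₃, H₂⁆ = ⊥ := by
      rw [Subgroup.commutator_eq_bot_iff_le_centralizer]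
      rintro _ ⟨y, hy, rfl⟩
      rw [Subgroup.mem_centralizer_iff]
      intro u hu
      obtain ⟨m, rfl⟩ := Subgroup.mem_zpowers_iff.mp hu
      have h1 : Commute (ρu ω) (ρu y) := (Units.ext hy.2 : Commute (ρu y) (ρu ω)).symm
      exact (h1.zpow_left m).eq
    have h1 : ⁅⁅H₂, H₃⁆, H₁⁆ = ⊥ := by
      rw [Subgroup.commutator_comm H₂ H₃, h23, Subgroup.commutator_bot_left]
    have h2 : ⁅⁅H₃, H₁⁆, H₂⁆ = ⊥ := by
      have h3 : ⁅H₃, H₁⁆ ≤ H₃ := by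
        rw [Subgroup.commutator_le]
        rintro _ ⟨y, hy, rfl⟩ _ ⟨x, hx, rfl⟩
        refine ⟨y * x * y⁻¹ * x⁻¹, hcomm y (hKR hy) x hx, ?_⟩
        simp [commutatorElement_def]
      rw [eq_bot_iff, ← h23]
      exact Subgroup.commutator_mono h3 le_rfl
    have h3 := Subgroup.commutator_commutator_eq_bot_of_rotate h1 h2
    have h4 : ⁅H₁, H₂⁆ ≤ Subgroup.centralizer (H₃ : Set _) :=
      (Subgroup.commutator_eq_bot_iff_le_centralizer).mp h3
    have h5 : R ≤ (Subgroup.centralizer (H₃ : Set _)).comap ρu := by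
      refine hgen.trans ((Subgroup.closure_le _).mpr ?_)
      rintro _ ⟨x, hx, rfl⟩
      refine h4 ?_
      have e : ρu (x⁻¹ * (ω * x * ω⁻¹)) = ⁅ρu x⁻¹, ρu ω⁆ := by
        simp [commutatorElement_def, mul_assoc]
      rw [e]
      exact Subgroup.commutator_mem_commutator ⟨x⁻¹, R.inv_mem hx, rfl⟩ (Subgroup.mem_zpowers _)
    intro x hx y hy
    have h6 := Subgroup.mem_centralizer_iff.mp (h5 hx) (ρu y) ⟨y, hy, rfl⟩
    have h7 := congrArg (fun u : (Module.End k W)ˣ => (u : Module.End k W)) h6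
    exact h7.symm
  -- semiregularity
  let D₂ : Subgroup Y :=
    { carrier := {x | x ∈ R ∧ x⁻¹ * (ω * x * ω⁻¹) ∈ K}
      mul_mem' := by
        rintro x y ⟨hx, hx2⟩ ⟨hy, hy2⟩
        refine ⟨R.mul_mem hx hy, ?_⟩
        have e : (x * y)⁻¹ * (ω * (x * y) * ω⁻¹) =
            y⁻¹ * (x⁻¹ * (ω * x * ω⁻¹)) * y⁻¹⁻¹ * (y⁻¹ * (ω * y * ω⁻¹)) := by group
        rw [e]
        exact K.mul_mem (hKn _ (R.inv_mem hy) _ hx2) hy2
      one_mem' := ⟨R.one_mem, by simp [K.one_mem]⟩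
      inv_mem' := by
        rintro x ⟨hx, hx2⟩
        refine ⟨R.inv_mem hx, ?_⟩
        have e : x⁻¹⁻¹ * (ω * x⁻¹ * ω⁻¹) = x * (x⁻¹ * (ω * x * ω⁻¹))⁻¹ * x⁻¹ := by group
        rw [e]
        exact hKn _ hx _ (K.inv_mem hx2) }
  have hD₂R : D₂ ≤ R := fun x hx => hx.1
  have hD₂a : a ∈ Subgroup.normalizer (D₂ : Set Y) := by
    refine mem_norm_of_conj_pow hP0 hap ?_
    rintro x ⟨hx, hx2⟩
    refine ⟨conj_mem_of_norm le_rfl haR hx, ?_⟩
    rw [← hconj_t]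
    exact conj_mem_of_norm le_rfl haK hx2
  have hD₂ne : D₂ ≠ R := by
    intro h
    apply hne
    refine le_antisymm hKR (hgen.trans ((Subgroup.closure_le _).mpr ?_))
    rintro _ ⟨x, hx, rfl⟩
    have : x ∈ D₂ := h.symm ▸ hx
    exact this.2
  have hD₂K := hmax D₂ hD₂R hD₂a hD₂ne
  have hfree : ∀ j : ℕ, ¬ p ^ (n + 1) ∣ j → ∀ x ∈ R, x⁻¹ * (a ^ j * x * (a ^ j)⁻¹) ∈ K → x ∈ K := by
    intro j hj x hx hxj
    have h1 : a ^ j ∈ cosetStab K x := ⟨pow_mem haK j, hxj⟩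
    have h2 : ω ∈ cosetStab K x :=
      (Subgroup.zpowers_le.mpr h1) (pow_mem_zpowers_pow S.hp hap hj)
    exact hD₂K ⟨hx, h2.2⟩
  exact ⟨R, K, hRQ, haR, hKR, haK, hKdef, hne, hmax, hcomm, hgen, hcentral, hfree⟩

end Cfsg.Agent.Lib.ShultGross
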