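import Mathlib
import Cfsg.Agent.Lib.ShultGross.Key1

/-!
# Weights on the critical subgroup
-/

set_option autoImplicit false
set_option linter.unusedSectionVars false
set_option linter.style.haveILetI false
set_option linter.unusedVariables false

namespace Cfsg.Agent.Lib.ShultGross

open Cfsg.Agent.Lib.Ward
open scoped commutatorElement

variable {Y : Type*} [Group Y] {k : Type*} [Field k] {W : Type*} [AddCommGroup W] [Module k W]

/-- The weight space. -/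
def wtSub (ρ : Y →* Module.End k W) (K : Subgroup Y) (lam : Y → k) : Submodule k W where
  carrier := {w | IsWt ρ K lam w}
  add_mem' := fun ha hb => ha.add hb
  zero_mem' := IsWt.zero
  smul_mem' := fun c _ h => h.smul c

theorem mem_wtSub {ρ : Y →* Module.End k W} {K : Subgroup Y} {lam : Y → k} {w : W} :
    w ∈ wtSub ρ K lam ↔ IsWt ρ K lam w := Iff.rfl

/-- The subgroup of `R` commuting with `R` on the `R`-stable subspace `U`. -/
def radSub (ρ : Y →* Module.End k W) (R : Subgroup Y) (U : Submodule k W)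
    (hU : ∀ x ∈ R, ∀ w ∈ U, ρ x w ∈ U) : Subgroup Y where
  carrier := {x | x ∈ R ∧ ∀ y ∈ R, ∀ w ∈ U, ρ x (ρ y w) = ρ y (ρ x w)}
  mul_mem' := by
    rintro x x' ⟨hx, hx2⟩ ⟨hx', hx2'⟩
    refine ⟨R.mul_mem hx hx', fun y hy w hw => ?_⟩
    rw [rho_mul_apply, rho_mul_apply, hx2' y hy w hw, hx2 y hy _ (hU x' hx' w hw)]
  one_mem' := ⟨R.one_mem, by simp⟩
  inv_mem' := by
    rintro x ⟨hx, hx2⟩
    refine ⟨R.inv_mem hx, fun y hy w hw => ?_⟩
    have h1 := hx2 y hy _ (hU _ (R.inv_mem hx) w hw)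
    rw [rho_apply_inv] at h1
    rw [← h1, rho_inv_apply]

section Crit

variable {ρ : Y →* Module.End k W} {a : Y} {p n : ℕ} {R K : Subgroup Y}

theorem Crit.wt_stable (C : Crit ρ a p n R K) (lam : Y → k) :
    ∀ x ∈ R, ∀ w ∈ wtSub ρ K lam, ρ x w ∈ wtSub ρ K lam := by
  intro x hx w hw y hy
  have h1 : ρ y (ρ x w) = ρ x (ρ y w) := by
    have := congrArg (fun f : Module.End k W => f w) (C.hcentral x hx y hy)
    exact this.symm
  rw [h1, hw y hy, map_smul]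

/-- The radical of the weight `lam`. -/
def Crit.rad (C : Crit ρ a p n R K) (lam : Y → k) : Subgroup Y :=
  radSub ρ R (wtSub ρ K lam) (C.wt_stable lam)

theorem Crit.mem_rad (C : Crit ρ a p n R K) {lam : Y → k} {x : Y} :
    x ∈ C.rad lam ↔ x ∈ R ∧ ∀ y ∈ R, ∀ w ∈ wtSub ρ K lam, ρ x (ρ y w) = ρ y (ρ x w) := Iff.rfl

theorem Crit.rad_le (C : Crit ρ a p n R K) (lam : Y → k) : C.rad lam ≤ R := fun _ hx => hx.1

theorem Crit.le_rad (C : Crit ρ a p n R K) (lam : Y → k) : K ≤ C.rad lam := by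
  intro x hx
  refine ⟨C.hKR hx, fun y hy w _ => ?_⟩
  have := congrArg (fun f : Module.End k W => f w) (C.hcentral y hy x hx)
  exact this.symm

/-- On the weight space the commutators act by scalars. -/
theorem Crit.comm_apply (C : Crit ρ a p n R K) {lam : Y → k} {x y : Y} (hx : x ∈ R) (hy : y ∈ R) {w : W}
    (hw : w ∈ wtSub ρ K lam) :
    ρ x (ρ y w) = lam (x * y * x⁻¹ * y⁻¹) • ρ y (ρ x w) := by
  have hw' : ρ y (ρ x w) ∈ wtSub ρ K lam := C.wt_stable lam y hy _ (C.wt_stable lam x hx w hw)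
  rw [← hw' _ (C.hcomm x hx y hy)]
  rw [← rho_mul_apply, ← rho_mul_apply, ← rho_mul_apply]
  congr 2
  group

theorem Crit.lam_eq_one_of_comm (C : Crit ρ a p n R K) {lam : Y → k} {x y : Y} (hx : x ∈ R) (hy : y ∈ R)
    {w : W} (hw : w ∈ wtSub ρ K lam) (hw0 : w ≠ 0) (h : ρ x (ρ y w) = ρ y (ρ x w)) :
    lam (x * y * x⁻¹ * y⁻¹) = 1 := by
  have h1 := C.comm_apply hx hy hw
  rw [h] at h1
  have hne : ρ y (ρ x w) ≠ 0 := by
    intro h0
    exact hw0 ((rho_eq_zero_iff ρ x w).mp ((rho_eq_zero_iff ρ y _).mp h0))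
  have h2 : (lam (x * y * x⁻¹ * y⁻¹) - 1) • ρ y (ρ x w) = 0 := by
    rw [sub_smul, one_smul, ← h1, sub_self]
  rcases smul_eq_zero.mp h2 with h3 | h3
  · exact sub_eq_zero.mp h3
  · exact absurd h3 hne

theorem Crit.mem_rad_of_lam (C : Crit ρ a p n R K) {lam : Y → k} {x : Y} (hx : x ∈ R)
    (h : ∀ y ∈ R, lam (x * y * x⁻¹ * y⁻¹) = 1) : x ∈ C.rad lam := by
  refine ⟨hx, fun y hy w hw => ?_⟩
  rw [C.comm_apply hx hy hw, h y hy, one_smul]

theorem Crit.lam_of_mem_rad (C : Crit ρ a p n R K) {lam : Y → k} {x y : Y} (hx : x ∈ C.rad lam) (hy : y ∈ R)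
    {w : W} (hw : w ∈ wtSub ρ K lam) (hw0 : w ≠ 0) : lam (x * y * x⁻¹ * y⁻¹) = 1 :=
  C.lam_eq_one_of_comm hx.1 hy hw hw0 (hx.2 y hy w hw)

/-- The radical is normal in `R`. -/
theorem Crit.rad_conj (C : Crit ρ a p n R K) (lam : Y → k) {x z : Y} (hx : x ∈ R) (hz : z ∈ C.rad lam) :
    x * z * x⁻¹ ∈ C.rad lam := by
  have h1 := C.hcomm x hx z hz.1
  have h2 := (C.rad lam).mul_mem (C.le_rad lam h1) hz
  simpa using h2

theorem card_ne_zero_of_isPGroup [Finite Y] {q : ℕ} (hq : q.Prime) {H : Subgroup Y} (hH : IsPGroup q H)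
    (hqk : (q : k) ≠ 0) : (Nat.card H : k) ≠ 0 := by
  haveI : Fact q.Prime := ⟨hq⟩
  obtain ⟨m, hm⟩ := IsPGroup.iff_card.mp hH
  rw [hm, Nat.cast_pow]
  exact pow_ne_zero _ hqk

/-- The choice of the weights. -/
theorem Crit.exists_weights [Finite Y] [IsAlgClosed k] [FiniteDimensional k W] {q : ℕ} {Q : Subgroup Y}
    (S : KeySetup ρ a p n q Q) (hRQ : R ≤ Q) (C : Crit ρ a p n R K) :
    ∃ (lam mu : Y → k) (w₁ : W), w₁ ∈ wtSub ρ K lam ∧ w₁ ≠ 0 ∧ IsWt ρ (C.rad lam) mu w₁ ∧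
      ∃ x₀ ∈ C.rad lam, mu x₀ ≠ 1 := by
  classical
  haveI : Fact q.Prime := ⟨S.hq⟩
  have hRp : IsPGroup q R := S.hQ.to_le hRQ
  have hKk : (Nat.card K : k) ≠ 0 := card_ne_zero_of_isPGroup S.hq (hRp.to_le C.hKR) S.hqk
  have hcommK : ∀ y ∈ K, ∀ z ∈ K, ∀ w ∈ (⊤ : Submodule k W), ρ y (ρ z w) = ρ z (ρ y w) := by
    intro y hy z hz w _
    have := congrArg (fun f : Module.End k W => f w) (C.hcentral y (C.hKR hy) z hz)
    exact this
  by_cases hA : ∃ y₀ ∈ K, ∃ w, ρ y₀ w ≠ w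
  · obtain ⟨y₀, hy₀, w₀, hw₀⟩ := hA
    obtain ⟨w, -, lam, hlam, hw⟩ := exists_wt_of_ne (ρ := ρ) hKk (U := ⊤)
      (fun _ _ _ _ => Submodule.mem_top) hcommK (ρ y₀) (by
        intro h
        exact hw₀ (h w₀ Submodule.mem_top))
    have hw0 : w ≠ 0 := by
      rintro rfl
      exact hw (map_zero _)
    have hlamy : lam y₀ ≠ 1 := fun h => hw (by rw [hlam y₀ hy₀, h, one_smul])
    -- a weight vector for the radical in the weight space
    have hZk : (Nat.card (C.rad lam) : k) ≠ 0 :=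
      card_ne_zero_of_isPGroup S.hq (hRp.to_le (C.rad_le lam)) S.hqk
    have hex : ∃ w₁ ∈ wtSub ρ K lam, w₁ ≠ 0 ∧ ∃ mu : Y → k, IsWt ρ (C.rad lam) mu w₁ := by
      by_contra hcon
      push Not at hcon
      have hle : wtSub ρ K lam ≤ ⊥ := by
        refine le_of_forall_wt (ρ := ρ) hZk (fun y hy w hw => C.wt_stable lam y hy.1 w hw) ?_ ?_
        · intro y hy z hz w hw
          exact hy.2 z hz.1 w hw
        · intro w hw mu hmu
          by_contra hw0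
          exact hcon w hw (fun h => hw0 (by rw [h]; exact Submodule.zero_mem _)) mu hmu
      have : w ∈ (⊥ : Submodule k W) := hle hlam
      exact hw0 (by simpa using this)
    obtain ⟨w₁, hw₁, hw₁0, mu, hmu⟩ := hex
    refine ⟨lam, mu, w₁, hw₁, hw₁0, hmu, y₀, C.le_rad lam hy₀, ?_⟩
    have h1 := wt_unique hw₁ (hmu.mono (C.le_rad lam)) hw₁0 hy₀
    intro h
    exact hlamy (by rw [h1, h])
  · push Not at hA
    let lam : Y → k := fun _ => 1
    have hall : ∀ w : W, w ∈ wtSub ρ K lam := by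
      intro w y hy
      rw [hA y hy w]
      simp [lam]
    have hRrad : ∀ x ∈ R, x ∈ C.rad lam := fun x hx => C.mem_rad_of_lam hx fun y _ => rfl
    obtain ⟨x₀, hx₀, hx₀K⟩ := SetLike.exists_of_lt (lt_of_le_of_ne C.hKR C.hne)
    have hx₀ne : ¬ ∀ w ∈ (⊤ : Submodule k W), ρ x₀ w = w := by
      intro h
      apply hx₀K
      refine (C.hKdef x₀ hx₀).mpr ?_
      have h1 : ρ x₀ = 1 := by
        ext w
        simpa using h w Submodule.mem_top
      rw [h1, one_mul, mul_one]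
    have hZk : (Nat.card (C.rad lam) : k) ≠ 0 :=
      card_ne_zero_of_isPGroup S.hq (hRp.to_le (C.rad_le lam)) S.hqk
    obtain ⟨w₁, -, mu, hmu, hw⟩ := exists_wt_of_ne (ρ := ρ) hZk (U := ⊤)
      (fun _ _ _ _ => Submodule.mem_top)
      (fun y hy z hz w _ => hy.2 z hz.1 w (hall w)) (ρ x₀) hx₀ne
    have hw0 : w₁ ≠ 0 := by
      rintro rfl
      exact hw (map_zero _)
    refine ⟨lam, mu, w₁, hall w₁, hw0, hmu, x₀, hRrad x₀ hx₀, ?_⟩
    intro h
    apply hw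
    rw [hmu x₀ (hRrad x₀ hx₀), h, one_smul]

theorem wtSub_conj {g : Y} {lam : Y → k} (hg : g ∈ wtStab K lam) {w : W} (hw : w ∈ wtSub ρ K lam) :
    ρ g w ∈ wtSub ρ K lam := by
  have h1 : IsWt ρ K (wtConj g lam) (ρ g w) :=
    IsWt.conj hw (fun y hy => conj_inv_mem_of_norm le_rfl hg.1 hy)
  exact h1.congr fun y hy => hg.2 y hy

/-- The radical is normalised by the stabiliser of the weight. -/
theorem Crit.rad_conj_mem (C : Crit ρ a p n R K) {lam : Y → k} {g : Y}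
    (hgR : g ∈ Subgroup.normalizer (R : Set Y)) (hg : g ∈ wtStab K lam) {x : Y} (hx : x ∈ C.rad lam) :
    g * x * g⁻¹ ∈ C.rad lam := by
  refine ⟨conj_mem_of_norm le_rfl hgR hx.1, fun y hy w hw => ?_⟩
  have hy' : g⁻¹ * y * g ∈ R := conj_inv_mem_of_norm le_rfl hgR hy
  have hw' : ρ g⁻¹ w ∈ wtSub ρ K lam := wtSub_conj (inv_mem hg) hw
  have h1 := hx.2 _ hy' _ hw'
  have e1 : ρ (g * x * g⁻¹) (ρ y w) = ρ g (ρ x (ρ (g⁻¹ * y * g) (ρ g⁻¹ w))) := by
    simp only [rho_mul_apply, rho_inv_apply, rho_apply_inv]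
  have e2 : ρ y (ρ (g * x * g⁻¹) w) = ρ g (ρ (g⁻¹ * y * g) (ρ x (ρ g⁻¹ w))) := by
    simp only [rho_mul_apply, rho_inv_apply, rho_apply_inv]
  rw [e1, e2, h1]

theorem Crit.rad_norm (C : Crit ρ a p n R K) {lam : Y → k} {g : Y}
    (hgR : g ∈ Subgroup.normalizer (R : Set Y)) (hg : g ∈ wtStab K lam) :
    g ∈ Subgroup.normalizer ((C.rad lam : Subgroup Y) : Set Y) := by
  refine mem_norm_of_conj (fun x hx => C.rad_conj_mem hgR hg hx) (fun x hx => ?_)
  have := C.rad_conj_mem (inv_mem hgR) (inv_mem hg) hx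
  simpa using this

/-- A vector fixed by the stabiliser yields a vector fixed by `a`. -/
theorem Crit.no_fixed {q : ℕ} {Q : Subgroup Y} (S : KeySetup ρ a p n q Q) (C : Crit ρ a p n R K)
    {lam mu : Y → k} {N₁ N' : ℕ} (hN₁ : 0 < N₁) (hN' : 0 < N')
    (hst₁ : ∀ j : ℕ, a ^ j ∈ wtStab K lam ↔ N₁ ∣ j)
    (hst₂ : ∀ j : ℕ, (a ^ N₁) ^ j ∈ wtStab (C.rad lam) mu ↔ N' ∣ j)
    {v : W} (hv : v ∈ wtSub ρ K lam) (hvmu : IsWt ρ (C.rad lam) mu v) (hv0 : v ≠ 0)
    (hb : ρ ((a ^ N₁) ^ N') v = v) : False := by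
  set c := a ^ N₁ with hc
  have hcS : c ∈ wtStab K lam := (hst₁ N₁).mpr dvd_rfl
  have hcR : c ∈ Subgroup.normalizer (R : Set Y) := pow_mem C.haR _
  have hcZ := C.rad_norm hcR hcS
  set u := ∑ l ∈ Finset.range N', ρ (c ^ l) v with hu
  have hu0 : u ≠ 0 := by
    refine orbit_sum_ne hcZ hvmu hv0 hN' fun l hl hlN h => ?_
    have := (hst₂ l).mp h
    exact absurd (Nat.le_of_dvd hl this) (by omega)
  have huw : u ∈ wtSub ρ K lam := by
    refine Submodule.sum_mem _ fun l _ => ?_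
    exact wtSub_conj (pow_mem hcS l) hv
  have hcu : ρ c u = u := orbit_sum_fixed' ρ hb
  have hau := orbit_sum_ne (ρ := ρ) (x := a) C.haK huw hu0 hN₁ (fun j hj hjN h => by
    have := (hst₁ j).mp h
    exact absurd (Nat.le_of_dvd hj this) (by omega))
  have hfix := orbit_sum_fixed' (x := a) (N := N₁) (u := u) ρ hcu
  exact hau (S.hW _ hfix)

end Crit

end Cfsg.Agent.Lib.ShultGross
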