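import Mathlib
import Cfsg.Agent.Lib.ShultGross.Key2

/-!
# Semiregular counting and the arithmetic of the exceptional case
-/

set_option autoImplicit false
set_option linter.unusedSectionVars false
set_option linter.style.haveILetI false
set_option linter.unusedVariables false

namespace Cfsg.Agent.Lib.ShultGross

open Cfsg.Agent.Lib.Ward
open Cfsg.Agent.Lib.Coprime.OmegaOne
open scoped commutatorElement

variable {Y : Type*} [Group Y]

theorem conjAut_pow_coe {R : Subgroup Y} {c : Y} (hc : c ∈ Subgroup.normalizer (R : Set Y)) (i : ℕ) (x : R) :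
    (((conjAut R c hc) ^ i) x : Y) = c ^ i * x * (c ^ i)⁻¹ := by
  induction i with
  | zero => simp
  | succ i ih =>
    rw [pow_succ', MulAut.mul_apply, conjAut_apply_coe, ih, pow_succ']
    group

theorem dvd_relIndex_sub_one [Finite Y] {R N : Subgroup Y} (hNR : N ≤ R)
    (hNn : ∀ x ∈ R, ∀ y ∈ N, x * y * x⁻¹ ∈ N) {c : Y} (hcR : c ∈ Subgroup.normalizer (R : Set Y))
    (hcN : c ∈ Subgroup.normalizer (N : Set Y)) {M : ℕ} (hM0 : M ≠ 0) (hcM : c ^ M = 1)
    (hfree : ∀ i : ℕ, ¬ M ∣ i → ∀ x ∈ R, x⁻¹ * (c ^ i * x * (c ^ i)⁻¹) ∈ N → x ∈ N) :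
    M ∣ N.relIndex R - 1 := by
  classical
  set Z' : Subgroup R := N.subgroupOf R with hZ'
  haveI hZn : Z'.Normal := by
    constructor
    intro y hy x
    rw [hZ', Subgroup.mem_subgroupOf] at hy ⊢
    exact hNn x x.2 y hy
  set α := conjAut R c hcR with hα
  have hmap : Z'.map α.toMonoidHom = Z' := by
    apply le_antisymm
    · rintro _ ⟨y, hy, rfl⟩
      rw [hZ', Subgroup.mem_subgroupOf]
      exact conj_mem_of_norm le_rfl hcN hy
    · intro x hx
      rw [hZ', Subgroup.mem_subgroupOf] at hx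
      refine ⟨⟨c⁻¹ * x * c, conj_inv_mem_of_norm le_rfl hcR x.2⟩, ?_, ?_⟩
      · show _ ∈ N.subgroupOf R
        rw [Subgroup.mem_subgroupOf]
        exact conj_inv_mem_of_norm le_rfl hcN hx
      · apply Subtype.ext
        show c * (c⁻¹ * x * c) * c⁻¹ = x
        group
  let π : (R ⧸ Z') ≃* (R ⧸ Z') := QuotientGroup.congr Z' Z' α hmap
  have hπ : ∀ x : R, π (x : R ⧸ Z') = ((α x : R) : R ⧸ Z') := fun x => rfl
  have hπpow : ∀ (i : ℕ) (x : R), (π.toEquiv ^ i : Equiv.Perm _) (x : R ⧸ Z') = (((α ^ i) x : R) : R ⧸ Z') := by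
    intro i x
    induction i with
    | zero => simp
    | succ i ih =>
      rw [pow_succ', Equiv.Perm.mul_apply, ih, pow_succ', MulAut.mul_apply]
      rfl
  haveI : Fintype (R ⧸ Z') := Fintype.ofFinite _
  obtain ⟨T, -, -, hT⟩ := card_eq_of_semiregular π.toEquiv (1 : R ⧸ Z') M hM0 (by
      ext x
      induction x using QuotientGroup.induction_on with
      | H x =>
        rw [hπpow]
        have h1 : (α ^ M) x = x := by
          apply Subtype.ext
          rw [conjAut_pow_coe, hcM]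
          simp
        rw [h1]
        rfl) (by
      intro i hi x
      induction x using QuotientGroup.induction_on with
      | H x =>
        rw [hπpow]
        intro h
        have h2 : ((α ^ i) x)⁻¹ * x ∈ Z' := QuotientGroup.eq.mp h
        have h3 : x⁻¹ * ((α ^ i) x) ∈ Z' := by
          have := Z'.inv_mem h2
          simpa using this
        rw [hZ', Subgroup.mem_subgroupOf] at h3
        have h4 : (x : Y)⁻¹ * (c ^ i * x * (c ^ i)⁻¹) ∈ N := by
          have e := conjAut_pow_coe hcR i x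
          rw [← e]
          exact h3
        have h5 := hfree i hi x x.2 h4
        have h6 : x ∈ Z' := by
          rw [hZ', Subgroup.mem_subgroupOf]
          exact h5
        exact (QuotientGroup.eq_one_iff x).mpr h6) (map_one π)
  have hidx : N.relIndex R = Fintype.card (R ⧸ Z') := by
    rw [Subgroup.relIndex, Subgroup.index, Nat.card_eq_fintype_card]
  rw [hidx, ← hT]
  simp

/-- The arithmetic leading to the exceptional case. -/
theorem arith_exception {p q m f d : ℕ} (hp : p.Prime) (hp2 : p ≠ 2) (hq : q.Prime)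
    (hd : d ^ 2 = q ^ f) (hf : q ^ f ≠ 1) (h1 : d + 1 ≤ p ^ m) (h2 : p ^ m ∣ d ^ 2 - 1) :
    q = 2 ∧ ∃ e, 1 ≤ e ∧ d = 2 ^ e ∧ 2 ^ e + 1 = p ^ m := by
  have hd0 : d ≠ 0 := by
    rintro rfl
    have : 0 = q ^ f := by simpa using hd
    exact (pow_ne_zero f hq.ne_zero) this.symm
  have hd1 : d ≠ 1 := by
    rintro rfl
    exact hf (by simpa using hd.symm)
  have hd2 : 2 ≤ d := by omega
  obtain ⟨c, rfl⟩ : ∃ c, d = c + 2 := ⟨d - 2, by omega⟩
  have hfact : (c + 2) ^ 2 - 1 = (c + 1) * (c + 3) := by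
    have : (c + 2) ^ 2 = (c + 1) * (c + 3) + 1 := by ring
    omega
  rw [hfact] at h2
  by_cases hp1 : p ∣ c + 3
  · have hpn : ¬ p ∣ c + 1 := by
      intro h
      have h3 : p ∣ (c + 3) - (c + 1) := Nat.dvd_sub hp1 h
      have h4 : (c + 3) - (c + 1) = 2 := by omega
      rw [h4] at h3
      exact hp2 ((Nat.prime_dvd_prime_iff_eq hp Nat.prime_two).mp h3)
    have hcop : Nat.Coprime (p ^ m) (c + 1) :=
      Nat.Coprime.pow_left m ((Nat.Prime.coprime_iff_not_dvd hp).mpr hpn)
    have h3 : p ^ m ∣ c + 3 := hcop.dvd_of_dvd_mul_left h2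
    have h4 := Nat.le_of_dvd (by omega) h3
    have h5 : p ^ m = c + 2 + 1 := by omega
    -- `d` is even
    have hodd : Odd (p ^ m) := (hp.odd_of_ne_two hp2).pow
    have heven : Even (c + 2) := by
      rw [h5] at hodd
      by_contra hne
      have h6 : Odd (c + 2) := Nat.not_even_iff_odd.mp hne
      have h7 : Even (c + 2 + 1) := h6.add_one
      exact (Nat.not_even_iff_odd.mpr hodd) h7
    have h2d : 2 ∣ q ^ f := by
      rw [← hd]
      exact Dvd.dvd.pow heven.two_dvd (by norm_num)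
    have hq2 : q = 2 := ((Nat.prime_dvd_prime_iff_eq Nat.prime_two hq).mp (Nat.prime_two.dvd_of_dvd_pow h2d)).symm
    subst hq2
    have hdvd : (c + 2) ∣ 2 ^ f := by
      rw [← hd]
      exact dvd_pow_self _ (by norm_num)
    obtain ⟨e, _, he⟩ := (Nat.dvd_prime_pow Nat.prime_two).mp hdvd
    refine ⟨rfl, e, ?_, he, ?_⟩
    · rcases Nat.eq_zero_or_pos e with h | h
      · subst h
        simp at he
      · exact h
    · rw [← he, h5]
  · exfalso
    have hcop : Nat.Coprime (p ^ m) (c + 3) :=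
      Nat.Coprime.pow_left m ((Nat.Prime.coprime_iff_not_dvd hp).mpr hp1)
    have h3 : p ^ m ∣ c + 1 := hcop.dvd_of_dvd_mul_right h2
    have h4 := Nat.le_of_dvd (by omega) h3
    omega

end Cfsg.Agent.Lib.ShultGross
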