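import Mathlib
import Cfsg.Agent.Lib.ShultGross.Key3

/-!
# The norm argument: an upper bound for the index of `K` in `R`
-/

set_option autoImplicit false
set_option linter.unusedSectionVars false
set_option linter.style.haveILetI false
set_option linter.unusedVariables false

namespace Cfsg.Agent.Lib.ShultGross

open Cfsg.Agent.Lib.Ward
open Cfsg.Agent.Lib.Coprime.OmegaOne
open scoped commutatorElement

variable {Y : Type*} [Group Y] {k : Type*} [Field k] {W : Type*} [AddCommGroup W] [Module k W]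
variable {ρ : Y →* Module.End k W} {a : Y} {p n : ℕ} {R K : Subgroup Y}

/-- The norm of a weight of `K` along the orbit of `a` is trivial. -/
theorem Crit.norm_one [Finite Y] {q : ℕ} {Q : Subgroup Y} (S : KeySetup ρ a p n q Q) (hRQ : R ≤ Q)
    (C : Crit ρ a p n R K) {lam : Y → k} {w₁ : W} (hw₁ : w₁ ∈ wtSub ρ K lam) (hw₁0 : w₁ ≠ 0)
    {N₁ : ℕ} (hst : a ^ N₁ ∈ wtStab K lam) :
    ∀ z ∈ K, ∏ j ∈ Finset.range N₁, lam ((a ^ j)⁻¹ * z * a ^ j) = 1 := by
  classical
  set f : Y → k := fun z => ∏ j ∈ Finset.range N₁, lam ((a ^ j)⁻¹ * z * a ^ j) with hf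
  have hwt : IsWt ρ K lam w₁ := hw₁
  have hKc : ∀ j : ℕ, ∀ z ∈ K, (a ^ j)⁻¹ * z * a ^ j ∈ K := fun j z hz =>
    conj_inv_mem_of_norm le_rfl (pow_mem C.haK j) hz
  have hmul : ∀ y ∈ K, ∀ z ∈ K, f (y * z) = f y * f z := by
    intro y hy z hz
    simp only [hf]
    rw [← Finset.prod_mul_distrib]
    refine Finset.prod_congr rfl fun j _ => ?_
    have e : (a ^ j)⁻¹ * (y * z) * a ^ j = ((a ^ j)⁻¹ * y * a ^ j) * ((a ^ j)⁻¹ * z * a ^ j) := by
      group
    rw [e, hwt.map_mul hw₁0 (hKc j y hy) (hKc j z hz)]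
  have hone : f 1 = 1 := by
    simp only [hf]
    apply Finset.prod_eq_one
    intro j _
    have e : (a ^ j)⁻¹ * 1 * a ^ j = 1 := by group
    rw [e]
    exact hwt.map_one hw₁0
  have hne : ∀ y ∈ K, lam y ≠ 0 := by
    intro y hy h0
    have := hwt y hy
    rw [h0, zero_smul] at this
    exact hw₁0 ((rho_eq_zero_iff ρ y w₁).mp this)
  have hinv : ∀ z ∈ K, f (a * z * a⁻¹) = f z := by
    intro z hz
    set v := a * z * a⁻¹ with hv
    have hvK : v ∈ K := conj_mem_of_norm le_rfl C.haK hz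
    set g : ℕ → k := fun i => lam ((a ^ i)⁻¹ * v * a ^ i) with hg
    have h1 := Finset.prod_range_succ g N₁
    have h2 := Finset.prod_range_succ' g N₁
    rw [h1] at h2
    have h3 : g N₁ = g 0 := by
      simp only [hg]
      rw [hst.2 v hvK]
      simp
    rw [h3] at h2
    have h4 : g 0 ≠ 0 := by
      simp only [hg]
      have e : (a ^ 0)⁻¹ * v * a ^ 0 = v := by simp
      rw [e]
      exact hne v hvK
    have h5 := mul_right_cancel₀ h4 h2
    have h6 : ∀ j, g (j + 1) = lam ((a ^ j)⁻¹ * z * a ^ j) := by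
      intro j
      simp only [hg]
      congr 1
      rw [hv, pow_succ]
      group
    simp only [h6] at h5
    exact h5
  -- surjectivity of the commutator map
  have hsurj : ∀ z ∈ K, ∃ y ∈ K, y⁻¹ * (a * y * a⁻¹) = z := by
    let φ : K → K := fun y => ⟨y⁻¹ * (a * y * a⁻¹), K.mul_mem (K.inv_mem y.2)
      (conj_mem_of_norm le_rfl C.haK y.2)⟩
    have hinj : Function.Injective φ := by
      intro y y' h
      have h1 : (y : Y)⁻¹ * (a * y * a⁻¹) = (y' : Y)⁻¹ * (a * y' * a⁻¹) := congrArg Subtype.val h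
      have h2 : a * ((y' : Y) * (y : Y)⁻¹) * a⁻¹ = (y' : Y) * (y : Y)⁻¹ := by
        have e1 : a * ((y' : Y) * (y : Y)⁻¹) * a⁻¹ = (a * y' * a⁻¹) * (a * y * a⁻¹)⁻¹ := by group
        have e2 : (a * (y' : Y) * a⁻¹) = y' * ((y : Y)⁻¹ * (a * y * a⁻¹)) := by
          rw [h1]; group
        rw [e1, e2]
        group
      have h3 := S.hfix _ (hRQ (C.hKR (K.mul_mem y'.2 (K.inv_mem y.2)))) h2
      apply Subtype.ext
      exact (mul_inv_eq_one.mp h3).symm
    have hs : Function.Surjective φ := Finite.injective_iff_surjective.mp hinj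
    intro z hz
    obtain ⟨y, hy⟩ := hs ⟨z, hz⟩
    exact ⟨y, y.2, congrArg Subtype.val hy⟩
  intro z hz
  obtain ⟨y, hy, rfl⟩ := hsurj z hz
  show f _ = 1
  rw [hmul _ (K.inv_mem hy) _ (conj_mem_of_norm le_rfl C.haK hy), hinv y hy, ← hmul _ (K.inv_mem hy) _ hy,
    inv_mul_cancel, hone]

theorem relIndex_comap_conj {g : Y} (hg : g ∈ Subgroup.normalizer (R : Set Y)) (Z : Subgroup Y) :
    (Z.comap (MulAut.conj g⁻¹).toMonoidHom).relIndex R = Z.relIndex R := by
  rw [Subgroup.relIndex_comap]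
  congr 1
  apply le_antisymm
  · rintro _ ⟨x, hx, rfl⟩
    have := conj_inv_mem_of_norm le_rfl hg hx
    simpa [MulAut.conj_apply] using this
  · intro x hx
    refine ⟨g * x * g⁻¹, conj_mem_of_norm le_rfl hg hx, ?_⟩
    simp [mul_assoc]

/-- The index bound. -/
theorem Crit.relIndex_le [Finite Y] {q : ℕ} {Q : Subgroup Y} (S : KeySetup ρ a p n q Q) (hRQ : R ≤ Q)
    (C : Crit ρ a p n R K) {lam : Y → k} {w₁ : W} (hw₁ : w₁ ∈ wtSub ρ K lam) (hw₁0 : w₁ ≠ 0)
    {N₁ : ℕ} (hN₁ : 0 < N₁) (hst : a ^ N₁ ∈ wtStab K lam) (hZ : C.rad lam ≠ R) :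
    K.relIndex R ≤ (C.rad lam).relIndex R ^ (N₁ - 1) := by
  classical
  set Z := C.rad lam with hZdef
  let H : ℕ → Subgroup Y := fun j => Z.comap (MulAut.conj (a ^ j)⁻¹).toMonoidHom
  have hHmem : ∀ j x, x ∈ H j ↔ (a ^ j)⁻¹ * x * a ^ j ∈ Z := by
    intro j x
    have e : (MulAut.conj (a ^ j)⁻¹).toMonoidHom x = (a ^ j)⁻¹ * x * a ^ j := by
      simp only [MulEquiv.coe_toMonoidHom, MulAut.conj_apply, inv_inv]
    show (MulAut.conj (a ^ j)⁻¹).toMonoidHom x ∈ Z ↔ _
    rw [e]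
  have hHidx : ∀ j, (H j).relIndex R = Z.relIndex R := fun j =>
    relIndex_comap_conj (pow_mem C.haR j) Z
  set s := (Finset.Ico 1 N₁).inf H with hs
  have hsmem : ∀ x ∈ s, ∀ j, 1 ≤ j → j < N₁ → (a ^ j)⁻¹ * x * a ^ j ∈ Z := by
    intro x hx j hj1 hj2
    have h1 : s ≤ H j := Finset.inf_le (Finset.mem_Ico.mpr ⟨hj1, hj2⟩)
    exact (hHmem j x).mp (h1 hx)
  -- elements of `s ⊓ R` lie in `Z`
  have hsZ : ∀ x ∈ s, x ∈ R → x ∈ Z := by
    intro x hx hxR
    refine C.mem_rad_of_lam hxR fun y hy => ?_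
    set t := x * y * x⁻¹ * y⁻¹ with ht
    have htK : t ∈ K := C.hcomm x hxR y hy
    have h1 := Crit.norm_one S hRQ C hw₁ hw₁0 hst t htK
    rw [Finset.prod_eq_single 0] at h1
    · simpa using h1
    · intro j hj hj0
      have hjlt : j < N₁ := Finset.mem_range.mp hj
      have hx' : (a ^ j)⁻¹ * x * a ^ j ∈ Z := hsmem x hx j (by omega) hjlt
      have hy' : (a ^ j)⁻¹ * y * a ^ j ∈ R := conj_inv_mem_of_norm le_rfl (pow_mem C.haR j) hy
      have h2 := C.lam_of_mem_rad hx' hy' hw₁ hw₁0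
      rw [← h2]
      congr 1
      rw [ht]
      group
    · intro h
      exact absurd (Finset.mem_range.mpr hN₁) h
  -- the `a`-invariant intersection
  let I : Subgroup Y := ⨅ j : Fin N₁, H j
  have hImem : ∀ x, x ∈ I ↔ ∀ j, j < N₁ → (a ^ j)⁻¹ * x * a ^ j ∈ Z := by
    intro x
    simp only [I, Subgroup.mem_iInf]
    constructor
    · intro h j hj
      exact (hHmem j x).mp (h ⟨j, hj⟩)
    · intro h j
      exact (hHmem j x).mpr (h j j.2)
  have hIZ : I ≤ Z := by
    intro x hx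
    have := (hImem x).mp hx 0 hN₁
    simpa using this
  have hIR : I ≤ R := hIZ.trans (C.rad_le lam)
  have haN : a ^ N₁ ∈ Subgroup.normalizer ((Z : Subgroup Y) : Set Y) :=
    C.rad_norm (pow_mem C.haR N₁) hst
  have hap : a ^ p ^ (n + 1) = 1 := by
    rw [← S.ha]
    exact pow_orderOf_eq_one a
  have haI : a ∈ Subgroup.normalizer ((I : Subgroup Y) : Set Y) := by
    refine mem_norm_of_conj_pow (pow_pos S.hp.pos (n + 1)) hap ?_
    intro x hx
    rw [hImem] at hx ⊢
    intro j hj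
    rcases Nat.eq_zero_or_pos j with rfl | hj0
    · have h1 := hx (N₁ - 1) (by omega)
      have h2 := conj_mem_of_norm le_rfl haN h1
      have e : a ^ N₁ = a ^ (N₁ - 1) * a := by
        rw [← pow_succ]
        congr 1
        omega
      have e2 : (a ^ 0)⁻¹ * (a * x * a⁻¹) * a ^ 0 =
          a ^ N₁ * ((a ^ (N₁ - 1))⁻¹ * x * a ^ (N₁ - 1)) * (a ^ N₁)⁻¹ := by
        have h3 : a * a ^ (N₁ - 1) = a ^ (N₁ - 1) * a := (Commute.pow_right (Commute.refl a) _)
        rw [e]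
        simp only [pow_zero, inv_one, one_mul, mul_one]
        rw [← h3]
        group
      rw [e2]
      exact h2
    · have h1 := hx (j - 1) (by omega)
      have e : a ^ j = a ^ (j - 1) * a := by
        rw [← pow_succ]
        congr 1
        omega
      have h3 : (a ^ j)⁻¹ * (a * x * a⁻¹) * a ^ j = (a ^ (j - 1))⁻¹ * x * a ^ (j - 1) := by
        have h4 : a * a ^ (j - 1) = a ^ (j - 1) * a := (Commute.pow_right (Commute.refl a) _)
        rw [e, ← h4]
        group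
      rw [h3]
      exact h1
  have hIne : I ≠ R := by
    intro h
    apply hZ
    exact le_antisymm (C.rad_le lam) (h ▸ hIZ)
  have hIK : I ≤ K := C.hmax I hIR haI hIne
  -- `s ⊓ R ≤ K`
  have hsK : s ⊓ R ≤ K := by
    rintro x ⟨hxs, hxR⟩
    apply hIK
    rw [hImem]
    intro j hj
    rcases Nat.eq_zero_or_pos j with rfl | hj0
    · simpa using hsZ x hxs hxR
    · exact hsmem x hxs j hj0 hj
  have h1 : K.relIndex R ≤ (s ⊓ R).relIndex R := by
    have h2 := Subgroup.relIndex_dvd_of_le_left R hsK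
    refine Nat.le_of_dvd (Nat.pos_of_ne_zero ?_) h2
    haveI : Finite (R ⧸ (s ⊓ R).subgroupOf R) := inferInstance
    exact Subgroup.index_ne_zero_of_finite
  rw [Subgroup.inf_relIndex_right] at h1
  refine h1.trans ((relIndex_inf_finset_le (Finset.Ico 1 N₁) H R).trans ?_)
  rw [Finset.prod_congr rfl (fun j _ => hHidx j)]
  simp

end Cfsg.Agent.Lib.ShultGross
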