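import Mathlib
import Cfsg.Agent.Lib.ShultGross.Key4
import Cfsg.Agent.Lib.ShultGross.Heis3
import Cfsg.Agent.Lib.Coprime.Coset

/-!
# The Hall-Higman step on the critical subgroup, and the key lemma
-/

set_option autoImplicit false
set_option linter.unusedSectionVars false
set_option linter.style.haveILetI false
set_option linter.unusedVariables false

namespace Cfsg.Agent.Lib.ShultGross

open Cfsg.Agent.Lib.Ward
open Cfsg.Agent.Lib.Coprime.OmegaOne
open scoped commutatorElement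

variable {Y : Type*} [Group Y] {k : Type*} [Field k] {W : Type*} [AddCommGroup W] [Module k W]
variable {ρ : Y →* Module.End k W} {a : Y} {p n : ℕ} {R K : Subgroup Y}

/-- If the weight `mu` lives on all of `R` and is stable under `a ^ p ^ n`, it is trivial. -/
theorem Crit.mu_trivial (C : Crit ρ a p n R K) {Z : Subgroup Y} {mu : Y → k} {w₁ : W}
    (hZR : Z = R) (hmu : IsWt ρ Z mu w₁) (hw₁0 : w₁ ≠ 0) (hω : a ^ p ^ n ∈ wtStab Z mu) :
    ∀ x ∈ R, mu x = 1 := by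
  subst hZR
  have hmul := fun {y z : Y} (hy : y ∈ Z) (hz : z ∈ Z) => hmu.map_mul hw₁0 hy hz
  have hone := hmu.map_one hw₁0
  have hinv : ∀ {y : Y}, y ∈ Z → mu y = 1 → mu y⁻¹ = 1 := by
    intro y hy h
    have := hmul (Z.inv_mem hy) hy
    rw [inv_mul_cancel, hone, h, mul_one] at this
    exact this.symm
  let A : Subgroup Y :=
    { carrier := {x | x ∈ Z ∧ mu x = 1}
      mul_mem' := by
        rintro x y ⟨hx, hx2⟩ ⟨hy, hy2⟩
        refine ⟨Z.mul_mem hx hy, ?_⟩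
        rw [hmul hx hy, hx2, hy2, one_mul]
      one_mem' := ⟨Z.one_mem, hone⟩
      inv_mem' := by
        rintro x ⟨hx, hx2⟩
        exact ⟨Z.inv_mem hx, hinv hx hx2⟩ }
  have hA : Subgroup.closure {t | ∃ x ∈ Z, t = x⁻¹ * (a ^ p ^ n * x * (a ^ p ^ n)⁻¹)} ≤ A := by
    rw [Subgroup.closure_le]
    rintro t ⟨x, hx, rfl⟩
    have h1 : a ^ p ^ n * x * (a ^ p ^ n)⁻¹ ∈ Z := conj_mem_of_norm le_rfl hω.1 hx
    have h2 := hω.2 _ h1
    have e : (a ^ p ^ n)⁻¹ * (a ^ p ^ n * x * (a ^ p ^ n)⁻¹) * a ^ p ^ n = x := by group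
    rw [e] at h2
    have hxinv : mu x⁻¹ * mu x = 1 := by
      rw [← hmul (Z.inv_mem hx) hx, inv_mul_cancel, hone]
    refine ⟨Z.mul_mem (Z.inv_mem hx) h1, ?_⟩
    rw [hmul (Z.inv_mem hx) h1, ← h2, hxinv]
  intro x hx
  exact (hA (C.hgen hx)).2

/-- The application of the Hall-Higman computation. -/
theorem Crit.hh_step [Finite Y] [IsAlgClosed k] [FiniteDimensional k W] {q : ℕ} {Q : Subgroup Y}
    (S : KeySetup ρ a p n q Q) (hRQ : R ≤ Q) (C : Crit ρ a p n R K) {lam mu : Y → k} {w₁ : W}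
    (hw₁ : w₁ ∈ wtSub ρ K lam) (hw₁0 : w₁ ≠ 0) (hmu : IsWt ρ (C.rad lam) mu w₁)
    {b : Y} {J M : ℕ} (hbJ : b = a ^ J) (hJM : J * M = p ^ (n + 1)) (hM : (M : k) ≠ 0)
    (hbS₁ : b ∈ wtStab K lam) (hbS₂ : b ∈ wtStab (C.rad lam) mu) :
    (∃ v, v ∈ wtSub ρ K lam ∧ IsWt ρ (C.rad lam) mu v ∧ v ≠ 0 ∧ ρ b v = v) ∨
      ∃ d, (C.rad lam).relIndex R = d ^ 2 ∧ d + 1 ≤ M ∧ M ∣ d ^ 2 - 1 := by
  classical
  haveI : Fact q.Prime := ⟨S.hq⟩
  set Z := C.rad lam with hZdef
  have hap : a ^ p ^ (n + 1) = 1 := by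
    rw [← S.ha]
    exact pow_orderOf_eq_one a
  have hbM : b ^ M = 1 := by
    rw [hbJ, ← pow_mul, hJM, hap]
  have hbR : b ∈ Subgroup.normalizer (R : Set Y) := by
    rw [hbJ]
    exact pow_mem C.haR J
  let Umu : Submodule k W := wtSub ρ K lam ⊓ wtSub ρ Z mu
  have hUlam : ∀ w ∈ Umu, w ∈ wtSub ρ K lam := fun w hw => hw.1
  have hUmu : ∀ w ∈ Umu, IsWt ρ Z mu w := fun w hw => hw.2
  have hUstab : ∀ x ∈ R, ∀ w ∈ Umu, ρ x w ∈ Umu := by
    intro x hx w hw
    refine ⟨C.wt_stable lam x hx w hw.1, fun z hz => ?_⟩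
    have h1 := hz.2 x hx w hw.1
    rw [h1, hw.2 z hz, map_smul]
  have hw₁U : w₁ ∈ Umu := ⟨hw₁, hmu⟩
  have hbU : ∀ w ∈ Umu, ρ b w ∈ Umu := fun w hw =>
    ⟨wtSub_conj hbS₁ hw.1, wtSub_conj hbS₂ hw.2⟩
  haveI : Nontrivial Umu := ⟨⟨⟨w₁, hw₁U⟩, 0, fun h => hw₁0 (congrArg Subtype.val h)⟩⟩
  haveI : Fintype R := Fintype.ofFinite _
  let ρE : R →* Module.End k Umu := restrictRep (ρ.comp R.subtype) Umu (fun x w hw => hUstab x x.2 w hw)
  have hρE : ∀ (x : R) (w : Umu), ((ρE x w : Umu) : W) = ρ x w.1 := fun _ _ => rfl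
  let τ : Module.End k Umu := (ρ b).restrict hbU
  have hτ : ∀ w : Umu, ((τ w : Umu) : W) = ρ b w.1 := fun _ => rfl
  let α : MulAut R := conjAut R b hbR
  have hαpow : ∀ (i : ℕ) (x : R), (((α ^ i) x : R) : Y) = b ^ i * x * (b ^ i)⁻¹ :=
    fun i x => conjAut_pow_coe hbR i x
  -- commuting implies membership of the radical
  have hcomm_mem : ∀ x : R, (∀ y : R, ρE x * ρE y = ρE y * ρE x) → (x : Y) ∈ Z := by
    intro x h
    refine C.mem_rad_of_lam x.2 fun y hy => ?_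
    have h1 := congrArg (fun f : Module.End k Umu => ((f ⟨w₁, hw₁U⟩ : Umu) : W)) (h ⟨y, hy⟩)
    exact C.lam_eq_one_of_comm x.2 hy hw₁ hw₁0 h1
  have hscal_of_mem : ∀ x : R, (x : Y) ∈ Z → IsScal (ρE x) := by
    intro x hx
    refine ⟨mu x, ?_⟩
    ext w
    show ρ x w.1 = mu x • w.1
    exact w.2.2 x hx
  have hscal_mem : ∀ x : R, IsScal (ρE x) → (x : Y) ∈ Z := by
    intro x hx
    exact hcomm_mem x fun y => IsScal.comm hx
  have hKscal : ∀ t ∈ K, ∀ ht : t ∈ R, IsScal (ρE ⟨t, ht⟩) := by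
    intro t htK ht
    refine ⟨lam t, ?_⟩
    ext w
    show ρ t w.1 = lam t • w.1
    exact w.2.1 t htK
  have hd : HHData ρE τ α M := by
    refine ⟨hM, ?_, ?_, ?_, ?_, ?_, ?_, ?_⟩
    · -- τ ^ M = 1
      have h1 : ∀ (i : ℕ) (w : Umu), (((τ ^ i) w : Umu) : W) = ρ (b ^ i) w.1 := by
        intro i w
        induction i with
        | zero => simp
        | succ i ih =>
          rw [pow_succ', Module.End.mul_apply, hτ, ih, ← rho_mul_apply, pow_succ']
      ext w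
      rw [h1, hbM]
      simp
    · intro x
      ext w
      show ρ b (ρ x w.1) = ρ (b * x * b⁻¹) (ρ b w.1)
      rw [← rho_mul_apply, ← rho_mul_apply]
      congr 2
      group
    · ext x
      rw [hαpow, hbM]
      simp
    · exact card_ne_zero_of_isPGroup S.hq (S.hQ.to_le hRQ) S.hqk
    · intro x y
      have h1 := C.hcomm x x.2 y y.2
      exact hKscal _ h1 (C.hKR h1)
    · intro x h
      exact hscal_of_mem x (hcomm_mem x h)
    · intro i hi x hx
      apply hscal_of_mem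
      set c₁ := b ^ i with hc₁
      have ht := hscal_mem _ hx
      have hcoe : (((α ^ i) x * x⁻¹ : R) : Y) = c₁ * x * c₁⁻¹ * (x : Y)⁻¹ := by
        rw [Subgroup.coe_mul, hαpow]
        rfl
      rw [hcoe] at ht
      have ht2 : (x : Y)⁻¹ * (c₁ * x * c₁⁻¹) ∈ Z := by
        have h1 := C.rad_conj lam (R.inv_mem x.2) ht
        convert h1 using 1
        group
      have hc₁R : c₁ ∈ Subgroup.normalizer (R : Set Y) := pow_mem hbR i
      have hc₁Z : c₁ ∈ Subgroup.normalizer (Z : Set Y) := C.rad_norm hc₁R (pow_mem hbS₁ i)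
      have hAstab : Subgroup.zpowers c₁ ≤ cosetStab Z (x : Y) :=
        (Subgroup.zpowers_le).mpr ⟨hc₁Z, ht2⟩
      have hc₁Rn : Subgroup.zpowers c₁ ≤ Subgroup.normalizer (R : Set Y) :=
        (Subgroup.zpowers_le).mpr hc₁R
      have hc₁Zn : Subgroup.zpowers c₁ ≤ Subgroup.normalizer (Z : Set Y) :=
        (Subgroup.zpowers_le).mpr hc₁Z
      have hRp : IsPGroup q R := S.hQ.to_le hRQ
      have hc₁pow : c₁ ^ p ^ (n + 1) = 1 := by
        have e : J * (i * p ^ (n + 1)) = p ^ (n + 1) * (J * i) := by ring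
        rw [hc₁, hbJ, ← pow_mul, ← pow_mul, e, pow_mul, hap, one_pow]
      have hcardA : Nat.card (Subgroup.zpowers c₁) ∣ p ^ (n + 1) := by
        rw [Nat.card_zpowers]
        exact orderOf_dvd_of_pow_eq_one hc₁pow
      obtain ⟨t, ht3⟩ := IsPGroup.iff_card.mp hRp
      have hcop : (Nat.card (Subgroup.zpowers c₁)).Coprime (Nat.card R) := by
        refine Nat.Coprime.coprime_dvd_left hcardA ?_
        rw [ht3]
        exact Nat.Coprime.pow _ _ ((Nat.coprime_primes S.hp S.hq).mpr S.hpq)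
      haveI : Group.IsNilpotent R := IsPGroup.isNilpotent hRp
      have hsolvR : Group.IsSolvable R := inferInstance
      obtain ⟨c', hc', hxc'⟩ := Cfsg.Agent.Lib.Coprime.Coset.exists_centralizer_mem_coset hc₁Rn hcop
        (Or.inr hsolvR) (C.rad_le lam) hc₁Zn (x : Y) x.2 (fun g hg => (hAstab hg).2)
      have hω : a ^ p ^ n ∈ Subgroup.zpowers c₁ := by
        have h1 : c₁ = a ^ (J * i) := by
          rw [hc₁, hbJ, pow_mul]
        rw [h1]
        refine pow_mem_zpowers_pow S.hp hap fun h => hi ?_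
        rw [← hJM] at h
        have hJ0 : 0 < J := by
          rcases Nat.eq_zero_or_pos J with h0 | h0
          · rw [h0, zero_mul] at hJM
            exact absurd hJM.symm (pow_ne_zero _ S.hp.ne_zero)
          · exact h0
        exact (Nat.mul_dvd_mul_iff_left hJ0).mp h
      have hc'K : c' ∈ K := by
        refine (C.hKdef c' hc'.1).mpr ?_
        have h1 : c' * a ^ p ^ n = a ^ p ^ n * c' := (Subgroup.mem_centralizer_iff.mp hc'.2 _ hω).symm
        rw [← map_mul, ← map_mul, h1]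
      have hc'Z : c' ∈ Z := C.le_rad lam hc'K
      have : (x : Y) = c' * ((x : Y)⁻¹ * c')⁻¹ := by group
      rw [this]
      exact Z.mul_mem hc'Z (Z.inv_mem hxc')
  rcases hh_main hd with ⟨w, hw0, hw⟩ | ⟨d, hd1, hd2, hd3⟩
  · left
    refine ⟨w.1, w.2.1, w.2.2, fun h => hw0 (Subtype.ext h), congrArg Subtype.val hw⟩
  · right
    refine ⟨d, ?_, hd2, hd3⟩
    rw [← hd1]
    have hsub : scalarSub ρE = Z.subgroupOf R := by
      ext x
      rw [mem_scalarSub, Subgroup.mem_subgroupOf]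
      exact ⟨hscal_mem x, hscal_of_mem x⟩
    rw [hsub]
    rfl

end Cfsg.Agent.Lib.ShultGross
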