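import Mathlib
import Cfsg.Agent.Lib.ShultGross.Key5

/-!
# The key lemma: the elements of `Q` commute with the subgroup of order `p` of `⟨a⟩` on `W`
-/

set_option autoImplicit false
set_option linter.unusedSectionVars false
set_option linter.style.haveILetI false
set_option linter.unusedVariables false

namespace Cfsg.Agent.Lib.ShultGross

open Cfsg.Agent.Lib.Ward
open Cfsg.Agent.Lib.Coprime.OmegaOne
open scoped commutatorElement

variable {Y : Type*} [Group Y] {k : Type*} [Field k] {W : Type*} [AddCommGroup W] [Module k W]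
variable {ρ : Y →* Module.End k W} {a : Y} {p n : ℕ} {R K : Subgroup Y}

theorem Crit.false [Finite Y] [IsAlgClosed k] [FiniteDimensional k W] {q : ℕ} {Q : Subgroup Y}
    (S : KeySetup ρ a p n q Q) (hRQ : R ≤ Q) (C : Crit ρ a p n R K) : False := by
  classical
  haveI : Fact q.Prime := ⟨S.hq⟩
  obtain ⟨lam, mu, w₁, hw₁, hw₁0, hmu, x₀, hx₀, hmux₀⟩ := C.exists_weights S hRQ
  set Z := C.rad lam with hZdef
  set P := p ^ (n + 1) with hP
  have hP0 : 0 < P := pow_pos S.hp.pos _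
  have hap : a ^ P = 1 := by
    rw [hP, ← S.ha]
    exact pow_orderOf_eq_one a
  obtain ⟨N₁, hN₁, hN₁P, hst₁⟩ := exists_period (wtStab K lam) a hP0 hap
  obtain ⟨P₁, hP₁⟩ := hN₁P
  have hP₁0 : 0 < P₁ := by
    rcases Nat.eq_zero_or_pos P₁ with h | h
    · rw [h, mul_zero] at hP₁
      omega
    · exact h
  have hcP₁ : (a ^ N₁) ^ P₁ = 1 := by rw [← pow_mul, ← hP₁, hap]
  obtain ⟨N', hN', hN'P, hst₂⟩ := exists_period (wtStab Z mu) (a ^ N₁) hP₁0 hcP₁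
  obtain ⟨M, hM⟩ := hN'P
  set b := (a ^ N₁) ^ N' with hb
  have hJM : (N₁ * N') * M = P := by rw [mul_assoc, ← hM, ← hP₁]
  have hbJ : b = a ^ (N₁ * N') := by rw [hb, pow_mul]
  have hbS₁ : b ∈ wtStab K lam := by
    rw [hbJ]
    exact (hst₁ _).mpr (dvd_mul_right _ _)
  have hbS₂ : b ∈ wtStab Z mu := (hst₂ N').mpr dvd_rfl
  obtain ⟨m, -, hMm⟩ := (Nat.dvd_prime_pow S.hp).mp (Dvd.intro_left _ hJM)
  have hMk : (M : k) ≠ 0 := by
    rw [hMm, Nat.cast_pow]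
    exact pow_ne_zero _ S.hpk
  have hnofix : ∀ v, v ∈ wtSub ρ K lam → IsWt ρ Z mu v → v ≠ 0 → ρ b v ≠ v := fun v h1 h2 h3 h4 =>
    C.no_fixed S hN₁ hN' hst₁ hst₂ h1 h2 h3 h4
  have hM1 : M ≠ 1 := by
    rintro rfl
    have hb1 : b = 1 := by
      rw [hbJ]
      rw [mul_one] at hJM
      rw [hJM, hap]
    exact hnofix w₁ hw₁ hmu hw₁0 (by rw [hb1]; simp)
  have hJ0 : 0 < N₁ * N' := Nat.mul_pos hN₁ hN'
  have hω : a ^ p ^ n ∈ wtStab Z mu := by
    have h1 : a ^ p ^ n ∈ Subgroup.zpowers (a ^ (N₁ * N')) := by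
      refine pow_mem_zpowers_pow S.hp hap fun h => hM1 ?_
      rw [← hP, ← hJM] at h
      have h2 : M ∣ 1 := by
        have h3 : N₁ * N' * M ∣ N₁ * N' * 1 := by rwa [mul_one]
        exact (Nat.mul_dvd_mul_iff_left hJ0).mp h3
      exact Nat.dvd_one.mp h2
    rw [← hbJ] at h1
    exact (Subgroup.zpowers_le.mpr hbS₂) h1
  by_cases hZR : Z = R
  · exact hmux₀ (C.mu_trivial hZR hmu hw₁0 hω x₀ (C.rad_le lam hx₀))
  rcases C.hh_step S hRQ hw₁ hw₁0 hmu hbJ hJM hMk hbS₁ hbS₂ with ⟨v, h1, h2, h3, h4⟩ | ⟨d, hd1, hd2, hd3⟩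
  · exact hnofix v h1 h2 h3 h4
  have hRp : IsPGroup q R := S.hQ.to_le hRQ
  obtain ⟨t, ht⟩ := IsPGroup.iff_card.mp hRp
  have hidx : ∀ L : Subgroup Y, ∃ f, L.relIndex R = q ^ f := by
    intro L
    have h1 : L.relIndex R ∣ q ^ t := by
      rw [← ht]
      exact (L.subgroupOf R).index_dvd_card
    obtain ⟨f, -, hf⟩ := (Nat.dvd_prime_pow S.hq).mp h1
    exact ⟨f, hf⟩
  obtain ⟨f, hf⟩ := hidx Z
  have hf1 : q ^ f ≠ 1 := by
    rw [← hf]
    intro h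
    exact hZR (le_antisymm (C.rad_le lam) (Subgroup.relIndex_eq_one.mp h))
  obtain ⟨hq2, e, he1, hde, h2e⟩ := arith_exception S.hp S.hp2 S.hq (hd1.symm.trans hf) hf1
    (by rw [← hMm]; exact hd2) (by rw [← hMm]; exact hd3)
  obtain ⟨D, hD⟩ := hidx K
  rw [hq2] at hD
  have hD1 : 1 ≤ D := by
    by_contra h
    have h0 : D = 0 := by omega
    rw [h0, pow_zero] at hD
    exact C.hne (le_antisymm C.hKR (Subgroup.relIndex_eq_one.mp hD))
  have hdvd : P ∣ 2 ^ D - 1 := by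
    rw [← hD]
    refine dvd_relIndex_sub_one C.hKR ?_ C.haR C.haK hP0.ne' hap C.hfree
    intro x hx y hy
    have h1 := K.mul_mem (C.hcomm x hx y (C.hKR hy)) hy
    simpa using h1
  obtain ⟨i, -, hN₁i⟩ := (Nat.dvd_prime_pow S.hp).mp (Dvd.intro _ hP₁.symm)
  have hm1 : 1 ≤ m := by
    by_contra h
    have h0 : m = 0 := by omega
    rw [h0, pow_zero] at hMm
    exact hM1 hMm
  have h3 : p ^ (i + m) ∣ 2 ^ D - 1 := by
    refine dvd_trans ?_ hdvd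
    rw [pow_add, ← hN₁i, ← hMm, ← hJM]
    exact ⟨N', by ring⟩
  have h4 := lte_bound S.hp S.hp2 he1 hm1 h2e hD1 h3
  rw [← hN₁i] at h4
  have h5 := C.relIndex_le S hRQ hw₁ hw₁0 hN₁ ((hst₁ N₁).mpr dvd_rfl) hZR
  rw [hD, hd1, hde, ← pow_mul, ← pow_mul] at h5
  have h6 := (Nat.pow_le_pow_iff_right (by norm_num : 1 < 2)).mp h5
  obtain ⟨u, rfl⟩ : ∃ u, N₁ = u + 1 := ⟨N₁ - 1, by omega⟩
  have h7 : u + 1 - 1 = u := by omega
  rw [h7] at h6
  nlinarith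

/-- **The key lemma.** -/
theorem key_rep [Finite Y] [IsAlgClosed k] [FiniteDimensional k W] {q : ℕ} {Q : Subgroup Y}
    (S : KeySetup ρ a p n q Q) : ∀ x ∈ Q, ρ x * ρ (a ^ p ^ n) = ρ (a ^ p ^ n) * ρ x := by
  by_contra hcon
  push Not at hcon
  obtain ⟨R, K, hRQ, C⟩ := exists_crit S hcon
  exact Crit.false S hRQ C

end Cfsg.Agent.Lib.ShultGross
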