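import Mathlib
import Cfsg.Agent.Lib.ShultGross.Key6
import Cfsg.Agent.Lib.Ward.Dual
import Cfsg.Agent.Lib.Coprime.FrattiniAct
import Cfsg.Agent.Lib.PGroup.Basic

/-!
# The key lemma in group-theoretic form
-/

set_option autoImplicit false
set_option linter.unusedSectionVars false
set_option linter.style.haveILetI false
set_option linter.unusedVariables false

namespace Cfsg.Agent.Lib.ShultGross

open Cfsg.Agent.Lib.Ward

universe u v

/-- Additive functions with values in a field of characteristic `s` separate the points outside the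
Frattini subgroup of an `s`-group. -/
theorem exists_addFun_of_not_frattini {V : Type u} [Group V] [Finite V] {s : ℕ} (hs : s.Prime)
    (hV : IsPGroup s V) {k : Type v} [Field k] [CharP k s] {u : V} (hu : u ∉ frattini V) :
    ∃ f : addFun V k, f.1 u ≠ 0 := by
  classical
  haveI : Fact s.Prime := ⟨hs⟩
  obtain ⟨M, hMn, hMi, -, huM⟩ :=
    Cfsg.Agent.Lib.PGroup.Basic.exists_normal_index_notMem_of_notMem_frattini hV hu
  haveI := hMn
  have hcard : Nat.card (V ⧸ M) = s := hMi
  haveI : IsCyclic (V ⧸ M) := isCyclic_of_prime_card hcard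
  have hcomm : ∀ x y : V ⧸ M, x * y = y * x := fun x y => by
    letI : CommGroup (V ⧸ M) := IsCyclic.commGroup
    exact mul_comm x y
  have hexp : ∀ v : V ⧸ M, v ^ s = 1 := fun v => by
    rw [← hcard]
    exact pow_card_eq_one'
  have hu1 : (u : V ⧸ M) ≠ 1 := by
    intro h
    exact huM ((QuotientGroup.eq_one_iff u).mp h)
  obtain ⟨f, hf⟩ := exists_addFun_ne (k := k) hcomm hs hexp hu1
  refine ⟨⟨fun v => f.1 (v : V ⧸ M), fun x y => ?_⟩, hf⟩
  show f.1 ((x * y : V) : V ⧸ M) = f.1 (x : V ⧸ M) + f.1 (y : V ⧸ M)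
  rw [QuotientGroup.mk_mul]
  exact f.2 _ _

variable {X : Type u} [Group X] [Finite X]

theorem app_key {a : X} {p n q s : ℕ} (hp : p.Prime) (hp2 : p ≠ 2) (ha : orderOf a = p ^ (n + 1))
    (hq : q.Prime) (hs : s.Prime) (hpq : p ≠ q) (hps : p ≠ s) (hqs : q ≠ s) {T Q : Subgroup X}
    [hTn : T.Normal] (hT : IsPGroup s T) (hQ : IsPGroup q Q)
    (haQ : a ∈ Subgroup.normalizer (Q : Set X)) (hfixQ : ∀ x ∈ Q, a * x * a⁻¹ = x → x = 1)
    (hfixT : ∀ x ∈ T, a * x * a⁻¹ = x → x = 1) :
    ∀ x ∈ Q, ∀ t ∈ T, x⁻¹ * (a ^ p ^ n * x * (a ^ p ^ n)⁻¹) * t =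
      t * (x⁻¹ * (a ^ p ^ n * x * (a ^ p ^ n)⁻¹)) := by
  classical
  haveI : Fact s.Prime := ⟨hs⟩
  haveI : Fact q.Prime := ⟨hq⟩
  let k := AlgebraicClosure (ZMod s)
  haveI : CharP k s := inferInstance
  let φ : X →* MulAut T := MulAut.conjNormal
  have hφ : ∀ (g : X) (t : T), ((φ g t : T) : X) = g * t * g⁻¹ := fun g t => MulAut.conjNormal_apply g t
  let ρ : X →* Module.End k (addFun T k) := dualRep φ
  have hcast : ∀ {l : ℕ}, l.Prime → l ≠ s → (l : k) ≠ 0 := by
    intro l hl hls h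
    have h1 := (CharP.cast_eq_zero_iff k s l).mp h
    exact hls ((Nat.prime_dvd_prime_iff_eq hs hl).mp h1).symm
  -- `a` has no nonzero fixed vector
  have hW : ∀ w, ρ a w = w → w = 0 := by
    intro f hf
    have hfa : ∀ t : T, f.1 (φ a t) = f.1 t := by
      intro t
      have h1 : ρ a⁻¹ f = f := by
        conv_lhs => rw [← hf]
        exact rho_inv_apply ρ a f
      have h2 := congrArg (fun g : addFun T k => g.1 t) h1
      simp only [ρ, dualRep_apply, inv_inv] at h2
      exact h2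
    have hsurj : Function.Surjective (fun y : T => y⁻¹ * φ a y) := by
      apply Finite.injective_iff_surjective.mp
      intro y y' h
      have h1 : (y : T)⁻¹ * φ a y = y'⁻¹ * φ a y' := h
      have h2 : φ a (y' * y⁻¹) = y' * y⁻¹ := by
        rw [map_mul, map_inv]
        have e : φ a y' = y' * (y⁻¹ * φ a y) := by rw [h1]; group
        rw [e]
        group
      have h3 : ((y' * y⁻¹ : T) : X) = 1 := by
        refine hfixT _ (y' * y⁻¹).2 ?_
        rw [← hφ, h2]
      have h4 : y' * y⁻¹ = 1 := Subtype.ext h3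
      exact (mul_inv_eq_one.mp h4).symm
    ext t
    obtain ⟨y, rfl⟩ := hsurj t
    show f.1 (y⁻¹ * φ a y) = 0
    rw [addFun_mul, hfa]
    have h5 : f.1 y⁻¹ + f.1 y = 0 := by
      rw [← addFun_mul, inv_mul_cancel, addFun_one]
    exact h5
  have hS : KeySetup ρ a p n q Q :=
    { hp := hp, hp2 := hp2, ha := ha, hq := hq, hpq := hpq, hQ := hQ, haQ := haQ, hfix := hfixQ,
      hpk := hcast hp hps, hqk := hcast hq hqs, hW := hW }
  have hkey := key_rep hS
  intro x hx
  set ω := a ^ p ^ n with hω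
  set z := x⁻¹ * (ω * x * ω⁻¹) with hz
  have hz1 : ρ z = 1 := (t_rho_one_iff ρ x ω).mpr (hkey x hx)
  have hzQ : z ∈ Q := by
    refine Q.mul_mem (Q.inv_mem hx) ?_
    exact conj_mem_of_norm le_rfl (pow_mem haQ _) hx
  have hzc : Subgroup.zpowers z ≤ Subgroup.centralizer (T : Set X) := by
    refine Cfsg.Agent.Lib.Coprime.FrattiniAct.le_centralizer_of_frattini (p := s) hT ?_ ?_ ?_
    · intro b _
      exact mem_norm_of_conj (fun y hy => hTn.conj_mem y hy b) (fun y hy => by
        have := hTn.conj_mem y hy b⁻¹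
        rwa [inv_inv] at this)
    · obtain ⟨e, he⟩ := IsPGroup.iff_card.mp (hQ.to_le (Subgroup.zpowers_le.mpr hzQ))
      rw [he]
      exact Nat.Coprime.pow_left _ ((Nat.coprime_primes hq hs).mpr hqs)
    · intro t ht b hb
      have hb1 : ρ b⁻¹ = 1 := by
        have hle : Subgroup.zpowers z ≤ ρ.ker := by
          rw [Subgroup.zpowers_le]
          exact (MonoidHom.mem_ker).mpr hz1
        exact (MonoidHom.mem_ker).mp (ρ.ker.inv_mem (hle hb))
      by_contra hcon
      set v : T := (⟨t, ht⟩ : T)⁻¹ * φ b ⟨t, ht⟩ with hv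
      have hvcoe : (v : X) = t⁻¹ * (b * t * b⁻¹) := by
        rw [hv, Subgroup.coe_mul, hφ]
        rfl
      have hvn : v ∉ frattini T := by
        intro h
        apply hcon
        exact ⟨v, h, hvcoe⟩
      obtain ⟨f, hf⟩ := exists_addFun_of_not_frattini (k := k) hs hT hvn
      apply hf
      have h2 := congrArg (fun g : Module.End k (addFun T k) => ((g f : addFun T k) : T → k) ⟨t, ht⟩) hb1
      simp only [ρ, dualRep_apply, inv_inv, Module.End.one_apply] at h2
      rw [hv, addFun_mul, h2, ← addFun_mul, inv_mul_cancel, addFun_one]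
  intro t ht
  have := (Subgroup.mem_centralizer_iff.mp (hzc (Subgroup.mem_zpowers z)) t ht)
  exact this.symm

end Cfsg.Agent.Lib.ShultGross
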