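import Mathlib
import Cfsg.Agent.Lib.ShultGross.App
import Cfsg.Agent.Lib.Ward.Pure
import Cfsg.Agent.Lib.Coprime.InvSylow

/-!
# Group-level consequences: the top power of `σ` acts trivially modulo the Fitting subgroup
-/

set_option autoImplicit false
set_option linter.unusedSectionVars false
set_option linter.style.haveILetI false
set_option linter.unusedVariables false

namespace Cfsg.Agent.Lib.ShultGross

open Cfsg Cfsg.Agent.Lib.Basic.PCore Cfsg.Agent.Lib.Components.Fitting Cfsg.Agent.Lib.Ward SemidirectProduct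

universe u

variable {G : Type u} [Group G]

/-- The holomorph of `G`. -/
abbrev Holo (G : Type u) [Group G] := G ⋊[MonoidHom.id (MulAut G)] MulAut G

theorem holo_conj (σ : MulAut G) (g : G) :
    (inr σ : Holo G) * inl g * (inr σ)⁻¹ = inl (σ g) := by
  have h := inl_aut (φ := MonoidHom.id (MulAut G)) σ g
  rw [← map_inv]
  exact h.symm

instance holo_finite [Finite G] : Finite (Holo G) :=
  Finite.of_equiv _ (equivProd (N := G) (G := MulAut G) (φ := MonoidHom.id (MulAut G))).symm

theorem holo_map_normal {T : Subgroup G} (hT : T.Characteristic) :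
    (T.map (inl : G →* Holo G)).Normal := by
  constructor
  rintro _ ⟨t, ht, rfl⟩ g
  obtain ⟨n, h, rfl⟩ : ∃ (n : G) (h : MulAut G), g = inl n * inr h :=
    ⟨g.left, g.right, (inl_left_mul_inr_right g).symm⟩
  have hn : T.Normal := inferInstance
  have h1 : h t ∈ T := by
    have := (Subgroup.characteristic_iff_map_le.mp hT) h
    exact this ⟨t, ht, rfl⟩
  refine ⟨n * h t * n⁻¹, hn.conj_mem _ h1 n, ?_⟩
  have e : (inl n * inr h : Holo G) * inl t * (inl n * inr h)⁻¹ =
      inl n * (inr h * inl t * (inr h)⁻¹) * (inl n)⁻¹ := by group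
  show (inl (n * h t * n⁻¹) : Holo G) = _
  rw [e, holo_conj, map_mul, map_mul, map_inv]

variable [Finite G]

theorem app_G {p n q s : ℕ} (hp : p.Prime) (hp2 : p ≠ 2) (σ : MulAut G) (hσ : orderOf σ = p ^ (n + 1))
    (hfpf : ∀ g : G, σ g = g → g = 1) (hq : q.Prime) (hs : s.Prime) (hpq : p ≠ q) (hps : p ≠ s)
    (hqs : q ≠ s) {T Q : Subgroup G} (hTc : T.Characteristic) (hT : IsPGroup s T) (hQ : IsPGroup q Q)
    (hQσ : ∀ x ∈ Q, σ x ∈ Q) :
    ∀ x ∈ Q, ∀ t ∈ T, x⁻¹ * (σ ^ p ^ n) x * t = t * (x⁻¹ * (σ ^ p ^ n) x) := by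
  intro x hx t ht
  set a : Holo G := inr σ with ha
  have hord : orderOf a = p ^ (n + 1) := by
    rw [ha, orderOf_injective inr inr_injective, hσ]
  haveI hTn := holo_map_normal hTc
  have hap : a ^ p ^ (n + 1) = 1 := by
    rw [← hord]
    exact pow_orderOf_eq_one a
  have hconj : ∀ g : G, a * inl g * a⁻¹ = inl (σ g) := fun g => holo_conj σ g
  have hfix : ∀ U : Subgroup G, ∀ x ∈ U.map (inl : G →* Holo G), a * x * a⁻¹ = x → x = 1 := by
    rintro U _ ⟨g, hg, rfl⟩ h
    rw [hconj] at h
    have h1 : σ g = g := inl_injective h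
    rw [hfpf g h1, map_one]
  have haQ : a ∈ Subgroup.normalizer ((Q.map (inl : G →* Holo G) : Subgroup (Holo G)) : Set (Holo G)) := by
    refine mem_norm_of_conj_pow (pow_pos hp.pos (n + 1)) hap ?_
    rintro _ ⟨g, hg, rfl⟩
    rw [hconj]
    exact ⟨σ g, hQσ g hg, rfl⟩
  have hmain := app_key hp hp2 hord hq hs hpq hps hqs (hT.map (inl : G →* Holo G))
    (hQ.map (inl : G →* Holo G)) haQ (hfix Q) (hfix T) (inl x) ⟨x, hx, rfl⟩ (inl t) ⟨t, ht, rfl⟩
  have hω : ∀ g : G, a ^ p ^ n * inl g * (a ^ p ^ n)⁻¹ = inl ((σ ^ p ^ n) g) := by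
    intro g
    rw [ha, ← map_pow]
    exact holo_conj _ g
  rw [hω, ← map_inv, ← map_mul, ← map_mul, ← map_mul] at hmain
  exact inl_injective hmain

/-- `p` does not divide the order of a group with a fixed-point-free automorphism of `p`-power order. -/
theorem not_dvd_card_of_fpf {p n : ℕ} (hp : p.Prime) (σ : MulAut G) (hσ : σ ^ p ^ n = 1)
    (hfpf : ∀ g : G, σ g = g → g = 1) : ¬ p ∣ Nat.card G := by
  classical
  haveI : Fact p.Prime := ⟨hp⟩
  intro hdvd
  have hAp : IsPGroup p (Subgroup.zpowers σ) := by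
    apply IsPGroup.of_card (n := (orderOf σ).factorization p)
    rw [Nat.card_zpowers]
    obtain ⟨m, -, hm⟩ := (Nat.dvd_prime_pow hp).mp (orderOf_dvd_of_pow_eq_one hσ)
    rw [hm, hp.factorization_pow]
    simp
  have h1 := hAp.card_modEq_card_fixedPoints G
  have h0 : Nat.card G ≡ 0 [MOD p] := (Nat.modEq_zero_iff_dvd).mpr hdvd
  have h2 : p ∣ Nat.card (MulAction.fixedPoints (Subgroup.zpowers σ) G) :=
    (Nat.modEq_zero_iff_dvd).mp (h1.symm.trans h0)
  have hall : ∀ v ∈ MulAction.fixedPoints (Subgroup.zpowers σ) G, v = 1 := by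
    intro v hv
    exact hfpf v (hv ⟨σ, Subgroup.mem_zpowers σ⟩)
  have hsub : Subsingleton (MulAction.fixedPoints (Subgroup.zpowers σ) G) := by
    constructor
    rintro ⟨a, ha⟩ ⟨b, hb⟩
    exact Subtype.ext ((hall a ha).trans (hall b hb).symm)
  haveI : Nonempty (MulAction.fixedPoints (Subgroup.zpowers σ) G) := ⟨⟨1, fun g => by
    show (g : MulAut G) 1 = 1
    exact map_one _⟩⟩
  rw [Nat.card_unique] at h2
  exact hp.one_lt.ne' (Nat.dvd_one.mp h2)

/-- An invariant Sylow subgroup of an invariant subgroup under a coprime automorphism. -/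
theorem exists_sigma_sylow (σ : MulAut G) (hσ : (orderOf σ).Coprime (Nat.card G)) (Y : Subgroup G)
    (hY : ∀ y ∈ Y, σ y ∈ Y) (q : ℕ) [Fact q.Prime] :
    ∃ Q : Subgroup G, Q ≤ Y ∧ IsPGroup q Q ∧ ¬ q ∣ Q.relIndex Y ∧ ∀ x ∈ Q, σ x ∈ Q := by
  classical
  set a : Holo G := inr σ with ha
  have hord : orderOf a = orderOf σ := by
    rw [ha, orderOf_injective inr inr_injective]
  have hconj : ∀ g : G, a * inl g * a⁻¹ = inl (σ g) := fun g => holo_conj σ g
  set K : Subgroup (Holo G) := Y.map (inl : G →* Holo G) with hK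
  have hap : a ^ orderOf σ = 1 := by
    rw [← hord]
    exact pow_orderOf_eq_one a
  have haK : a ∈ Subgroup.normalizer (K : Set (Holo G)) := by
    refine mem_norm_of_conj_pow (orderOf_pos σ) hap ?_
    rintro _ ⟨g, hg, rfl⟩
    rw [hconj]
    exact ⟨σ g, hY g hg, rfl⟩
  have hcard : Nat.card K = Nat.card Y :=
    (Nat.card_congr (Subgroup.equivMapOfInjective Y inl inl_injective).toEquiv).symm
  have hcop : (Nat.card (Subgroup.zpowers a)).Coprime (Nat.card K) := by
    rw [Nat.card_zpowers, hord, hcard]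
    exact Nat.Coprime.coprime_dvd_right (Subgroup.card_subgroup_dvd_card Y) hσ
  obtain ⟨P, hP⟩ := Cfsg.Agent.Lib.Coprime.InvSylow.exists_invariant_sylow
    (Subgroup.zpowers_le.mpr haK) hcop (Or.inl inferInstance) q
  set P' : Subgroup (Holo G) := (P : Subgroup K).map K.subtype with hP'
  have hP'K : P' ≤ K := by
    rintro _ ⟨x, -, rfl⟩
    exact x.2
  have haP : a ∈ Subgroup.normalizer (P' : Set (Holo G)) := hP (Subgroup.mem_zpowers a)
  have hmapQ : (P'.comap (inl : G →* Holo G)).map (inl : G →* Holo G) = P' := by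
    apply Subgroup.map_comap_eq_self
    refine hP'K.trans ?_
    rintro _ ⟨g, -, rfl⟩
    exact ⟨g, rfl⟩
  refine ⟨P'.comap inl, ?_, ?_, ?_, ?_⟩
  · intro x hx
    obtain ⟨y, hy, hyx⟩ := hP'K hx
    rwa [← inl_injective hyx]
  · exact ((P.2 : IsPGroup q (P : Subgroup K)).map K.subtype).comap_of_injective _ inl_injective
  · intro hdvd
    have h1 : (P'.comap inl).relIndex Y = P'.relIndex K := by
      conv_rhs => rw [← hmapQ]
      rw [hK, Subgroup.relIndex_map_map_of_injective _ _ inl_injective]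
    rw [h1] at hdvd
    have h2 : P'.relIndex K = (P : Subgroup K).index := by
      rw [hP', Subgroup.relIndex]
      show ((Subgroup.map K.subtype (P : Subgroup K)).comap K.subtype).index = _
      rw [Subgroup.comap_map_eq_self_of_injective K.subtype_injective]
    rw [h2] at hdvd
    exact P.not_dvd_index hdvd
  · intro x hx
    show inl (σ x) ∈ P'
    rw [← hconj]
    exact conj_mem_of_norm le_rfl haP hx

/-- The part of the Fitting argument. -/
theorem nilp_piece {q : ℕ} (hq : q.Prime) {Y : Subgroup G} (hYq : ∀ y ∈ Y, ∃ e, y ^ q ^ e ∈ fittingSubgroup G) :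
    Group.IsNilpotent ↥(Y ⊓ centOff G q) := by
  classical
  haveI : Fact q.Prime := ⟨hq⟩
  set H := Y ⊓ centOff G q with hH
  have hFnil : Group.IsNilpotent (fittingSubgroup G) := fittingSubgroup_isNilpotent
  have hp : IsPGroup q (H ⧸ Subgroup.center H) := by
    intro g
    obtain ⟨n, rfl⟩ := QuotientGroup.mk_surjective g
    obtain ⟨e', he'⟩ := hYq n n.2.1
    obtain ⟨e, m, hm, hnm⟩ := Nat.exists_eq_pow_mul_and_not_dvd (n := orderOf n) (orderOf_pos n).ne' q
      hq.ne_one
    refine ⟨e + e', ?_⟩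
    rw [← QuotientGroup.mk_pow, QuotientGroup.eq_one_iff, Subgroup.mem_center_iff]
    intro n'
    set z : G := ((n ^ q ^ (e + e') : H) : G) with hz
    have hzF : z ∈ fittingSubgroup G := by
      have e1 : z = ((n : G) ^ q ^ e') ^ q ^ e := by
        rw [hz, Subgroup.coe_pow, ← pow_mul, pow_add, mul_comm]
      rw [e1]
      exact pow_mem he' _
    have hord : (orderOf z).Coprime q := by
      have h1 : z ^ m = 1 := by
        have := pow_orderOf_eq_one n
        rw [hnm] at this
        have h2 := congrArg Subtype.val this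
        have e2 : z ^ m = (((n : G) ^ (q ^ e * m))) ^ q ^ e' := by
          rw [hz, Subgroup.coe_pow, ← pow_mul, ← pow_mul]
          congr 1
          rw [pow_add]
          ring
        rw [e2]
        have h3 : (n : G) ^ (q ^ e * m) = 1 := by simpa using h2
        rw [h3, one_pow]
      have h2 : orderOf z ∣ m := orderOf_dvd_of_pow_eq_one h1
      refine Nat.Coprime.coprime_dvd_left h2 ?_
      exact Nat.Coprime.symm ((Nat.Prime.coprime_iff_not_dvd hq).mpr hm)
    have hle : Subgroup.zpowers z ≤ Subgroup.centralizer ({(n' : G)} : Set G) := by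
      refine le_of_prime_power_mem ?_
      intro u hu r s hr hus
      rw [Subgroup.mem_centralizer_singleton_iff]
      by_cases hs : s = 0
      · subst hs
        have : u = 1 := by simpa using hus
        rw [this, one_mul, mul_one]
      have hrq : r ≠ q := by
        rintro rfl
        have h1 : orderOf u ∣ orderOf z := orderOf_dvd_of_mem_zpowers hu
        have h2 : r ∣ orderOf u := by rw [hus]; exact dvd_pow_self r hs
        have h3 := Nat.Coprime.coprime_dvd_left (h2.trans h1) hord
        exact hq.one_lt.ne' (by simpa using h3)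
      have huF : u ∈ fittingSubgroup G := (Subgroup.zpowers_le.mpr hzF) hu
      have huO : u ∈ pCore r G := mem_pCore_of_normal_nilpotent inferInstance hFnil huF hr hus
      exact (n'.2.2 r hr hrq u huO).symm
    have := hle (Subgroup.mem_zpowers z)
    rw [Subgroup.mem_centralizer_singleton_iff] at this
    exact Subtype.ext this.symm
  exact Group.of_quotient_center_nilpotent hp.isNilpotent

/-- Elements of `Y` centralising `O_s` for all `s ≠ q`, with `Y / F` a `q`-group, lie in `F`. -/
theorem mem_fitting_of_centOff {q : ℕ} (hq : q.Prime) {Y : Subgroup G} (hYn : Y.Normal)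
    (hYq : ∀ y ∈ Y, ∃ e, y ^ q ^ e ∈ fittingSubgroup G) {z : G} (hzY : z ∈ Y) (hz : z ∈ centOff G q) :
    z ∈ fittingSubgroup G := by
  have hn : (Y ⊓ centOff G q).Normal := inferInstance
  exact le_fittingSubgroup hn (nilp_piece hq hYq) ⟨hzY, hz⟩

/-- An automorphism of coprime `p`-power order fixing `F(H)` pointwise is trivial. -/
theorem aut_trivial_of_fix_fitting {H : Type*} [Group H] [Finite H] (hsolv : Group.IsSolvable H)
    (θ : MulAut H) {p k : ℕ} (hp : p.Prime) (hθ : θ ^ p ^ k = 1) (hcop : ¬ p ∣ Nat.card H)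
    (hfix : ∀ x ∈ fittingSubgroup H, θ x = x) : θ = 1 := by
  classical
  set F := fittingSubgroup H with hF
  have hCF : Subgroup.centralizer (F : Set H) ≤ F := by
    refine le_fitting_of_solvable_of_le_centralizer _ le_rfl Subgroup.le_normalizer ?_
    exact Group.isSolvable_of_isSolvable_injective (f := (Subgroup.centralizer (F : Set H)).subtype)
      (Subgroup.subtype_injective _)
  ext g
  set t := θ g * g⁻¹ with ht
  have htC : t ∈ Subgroup.centralizer (F : Set H) := by
    rw [Subgroup.mem_centralizer_iff]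
    intro x hx
    have hx' : g⁻¹ * x * g ∈ F := by
      have := (fittingSubgroup_normal H).conj_mem x hx g⁻¹
      simpa using this
    have h1 := hfix _ hx'
    have h2 := hfix x hx
    rw [map_mul, map_mul, map_inv, h2] at h1
    calc x * t = x * θ g * g⁻¹ := by rw [ht, mul_assoc]
      _ = θ g * (θ g⁻¹ * x * θ g) * g⁻¹ := by rw [map_inv]; group
      _ = θ g * (g⁻¹ * x * g) * g⁻¹ := by rw [map_inv, h1]
      _ = t * x := by rw [ht]; group
  have htF : t ∈ F := hCF htC
  have hθt : θ t = t := hfix t htF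
  have hθg : θ g = t * g := by rw [ht]; group
  have hpow : ∀ i : ℕ, (θ ^ i) g = t ^ i * g := by
    intro i
    induction i with
    | zero => simp
    | succ i ih =>
      rw [pow_succ', MulAut.mul_apply, ih, map_mul, map_pow, hθt, hθg, pow_succ]
      group
  have h5 := hpow (p ^ k)
  rw [hθ, MulAut.one_apply] at h5
  have h6 : t ^ p ^ k = 1 := by
    have h7 := congrArg (fun y => y * g⁻¹) h5
    simpa using h7.symm
  have h8 : orderOf t ∣ p ^ k := orderOf_dvd_of_pow_eq_one h6
  have h9 : orderOf t ∣ Nat.card H := orderOf_dvd_natCard t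
  have h10 : (p ^ k).Coprime (Nat.card H) :=
    Nat.Coprime.pow_left _ ((Nat.Prime.coprime_iff_not_dvd hp).mpr hcop)
  have h11 : orderOf t = 1 := Nat.eq_one_of_dvd_coprimes h10 h8 h9
  have h12 : t = 1 := orderOf_eq_one_iff.mp h11
  rw [hθg, h12, one_mul, MulAut.one_apply]

end Cfsg.Agent.Lib.ShultGross
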