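import Mathlib
import Cfsg.Agent.Lib.ShultGross.GLevel

/-!
# The Shult-Gross theorem for odd `p`
-/

set_option autoImplicit false
set_option linter.unusedSectionVars false
set_option linter.style.haveILetI false
set_option linter.unusedVariables false

namespace Cfsg.Agent.Lib.ShultGross

open Cfsg Cfsg.Agent.Lib.Basic.PCore Cfsg.Agent.Lib.Components.Fitting Cfsg.Agent.Lib.Ward

universe u

variable {G : Type u} [Group G] [Finite G]

theorem map_fitting_eq (σ : MulAut G) :
    (fittingSubgroup G).map σ.toMonoidHom = fittingSubgroup G :=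
  (Subgroup.characteristic_iff_map_eq.mp fittingSubgroup_characteristic) σ

/-- The automorphism induced on `G / F(G)`. -/
noncomputable def barAut (σ : MulAut G) : MulAut (G ⧸ fittingSubgroup G) :=
  QuotientGroup.congr (fittingSubgroup G) (fittingSubgroup G) σ (map_fitting_eq σ)

theorem barAut_mk (σ : MulAut G) (g : G) :
    barAut σ (g : G ⧸ fittingSubgroup G) = ((σ g : G) : G ⧸ fittingSubgroup G) := rfl

theorem barAut_pow_mk (σ : MulAut G) (i : ℕ) (g : G) :
    (barAut σ ^ i) (g : G ⧸ fittingSubgroup G) = (((σ ^ i) g : G) : G ⧸ fittingSubgroup G) := by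
  induction i with
  | zero => simp
  | succ i ih =>
    rw [pow_succ', MulAut.mul_apply, ih, pow_succ', MulAut.mul_apply]
    rfl

theorem mem_fitting_of_apply (σ : MulAut G) {f : G} (hf : f ∈ fittingSubgroup G) :
    σ f ∈ fittingSubgroup G := by
  have := map_fitting_eq σ
  rw [← this]
  exact ⟨f, hf, rfl⟩

/-- Fixed-point-freeness passes to `G / F(G)`. -/
theorem barAut_fpf (σ : MulAut G) (hfpf : ∀ g : G, σ g = g → g = 1) :
    ∀ x : G ⧸ fittingSubgroup G, barAut σ x = x → x = 1 := by
  intro x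
  induction x using QuotientGroup.induction_on with
  | H g =>
    intro h
    rw [barAut_mk] at h
    set F := fittingSubgroup G with hF
    have hu : g⁻¹ * σ g ∈ F := by
      have h1 := QuotientGroup.eq.mp h
      have h2 := F.inv_mem h1
      simpa using h2
    let φ : F → F := fun y => ⟨(y : G)⁻¹ * σ y, F.mul_mem (F.inv_mem y.2) (mem_fitting_of_apply σ y.2)⟩
    have hinj : Function.Injective φ := by
      intro y y' hyy
      have h1 : (y : G)⁻¹ * σ y = (y' : G)⁻¹ * σ y' := congrArg Subtype.val hyy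
      have h2 : σ ((y' : G) * (y : G)⁻¹) = (y' : G) * (y : G)⁻¹ := by
        rw [map_mul, map_inv]
        have e : σ (y' : G) = y' * ((y : G)⁻¹ * σ y) := by rw [h1]; group
        rw [e]
        group
      have h3 := hfpf _ h2
      exact Subtype.ext (mul_inv_eq_one.mp h3).symm
    obtain ⟨f, hf⟩ := Finite.injective_iff_surjective.mp hinj ⟨_, hu⟩
    have hf' : (f : G)⁻¹ * σ f = g⁻¹ * σ g := congrArg Subtype.val hf
    have h4 : σ (g * (f : G)⁻¹) = g * (f : G)⁻¹ := by
      rw [map_mul, map_inv]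
      have e1 : σ g = g * ((f : G)⁻¹ * σ f) := by rw [hf']; group
      rw [e1]
      group
    have h5 := hfpf _ h4
    have h6 : g = f := mul_inv_eq_one.mp h5
    rw [h6]
    exact (QuotientGroup.eq_one_iff _).mpr f.2

theorem le_sup_of_sylow {q : ℕ} (hq : q.Prime) {Q Y F : Subgroup G} [hFn : F.Normal] (hFY : F ≤ Y)
    (hQY : Q ≤ Y) (hQ : ¬ q ∣ Q.relIndex Y) (hYq : ∀ y ∈ Y, ∃ e, y ^ q ^ e ∈ F) : Y ≤ Q ⊔ F := by
  classical
  haveI : Fact q.Prime := ⟨hq⟩
  set L := Q ⊔ F with hL
  have h1 : L.relIndex Y ∣ Q.relIndex Y := Subgroup.relIndex_dvd_of_le_left Y le_sup_left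
  have h2 : L.relIndex Y ∣ F.relIndex Y := Subgroup.relIndex_dvd_of_le_left Y le_sup_right
  have hp : IsPGroup q (Y ⧸ F.subgroupOf Y) := by
    intro g
    obtain ⟨y, rfl⟩ := QuotientGroup.mk_surjective g
    obtain ⟨e, he⟩ := hYq y y.2
    refine ⟨e, ?_⟩
    rw [← QuotientGroup.mk_pow, QuotientGroup.eq_one_iff, Subgroup.mem_subgroupOf]
    exact he
  obtain ⟨m, hm⟩ := IsPGroup.iff_card.mp hp
  have h3 : F.relIndex Y = q ^ m := by
    rw [Subgroup.relIndex, Subgroup.index, hm]
  rw [h3] at h2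
  obtain ⟨j, -, hj⟩ := (Nat.dvd_prime_pow hq).mp h2
  rcases Nat.eq_zero_or_pos j with rfl | hj0
  · rw [pow_zero] at hj
    exact Subgroup.relIndex_eq_one.mp hj
  · exfalso
    apply hQ
    rw [hj] at h1
    exact (dvd_pow_self q hj0.ne').trans h1

/-- **Main step**: the top power of `σ` acts trivially on `G / F(G)`. -/
theorem barAut_pow_eq_one (hG : Group.IsSolvable G) {p n : ℕ} (hp : p.Prime) (hp2 : p ≠ 2) (σ : MulAut G)
    (hσ : orderOf σ = p ^ (n + 1)) (hfpf : ∀ g : G, σ g = g → g = 1) : barAut σ ^ p ^ n = 1 := by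
  classical
  haveI : Fact p.Prime := ⟨hp⟩
  set F := fittingSubgroup G with hF
  have hσP : σ ^ p ^ (n + 1) = 1 := by
    rw [← hσ]
    exact pow_orderOf_eq_one σ
  have hpG : ¬ p ∣ Nat.card G := not_dvd_card_of_fpf hp σ hσP hfpf
  have hpbar : ¬ p ∣ Nat.card (G ⧸ F) := fun h =>
    hpG (h.trans (Subgroup.card_quotient_dvd_card F))
  have hcopσ : (orderOf σ).Coprime (Nat.card G) := by
    rw [hσ]
    exact Nat.Coprime.pow_left _ ((Nat.Prime.coprime_iff_not_dvd hp).mpr hpG)
  set θ := barAut σ ^ p ^ n with hθ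
  have hbarP : barAut σ ^ p ^ (n + 1) = 1 := by
    ext x
    induction x using QuotientGroup.induction_on with
    | H g =>
      rw [barAut_pow_mk, hσP]
      rfl
  have hθp : θ ^ p ^ 1 = 1 := by
    rw [hθ, ← pow_mul, pow_one, ← pow_succ, hbarP]
  have hbarsolv : Group.IsSolvable (G ⧸ F) := inferInstance
  refine aut_trivial_of_fix_fitting hbarsolv θ hp hθp hpbar ?_
  -- the fixed points of `θ` form a subgroup
  let Fix : Subgroup (G ⧸ F) := (θ.toMonoidHom).eqLocus (MonoidHom.id _)
  have hFix : ∀ x, x ∈ Fix ↔ θ x = x := fun x => Iff.rfl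
  have hle : fittingSubgroup (G ⧸ F) ≤ Fix := by
    rw [fittingSubgroup_eq_iSup_pCore]
    refine iSup_le ?_
    rintro ⟨q, hqmem⟩
    have hq : q.Prime := Nat.prime_of_mem_primeFactors hqmem
    haveI : Fact q.Prime := ⟨hq⟩
    intro ybar hybar
    rw [hFix]
    by_cases hqp : q = p
    · -- `O_p` of the quotient is trivial
      subst hqp
      have hpc : IsPGroup q (pCore q (G ⧸ F)) := pCore_isPGroup q
      obtain ⟨e, he⟩ := hpc ⟨ybar, hybar⟩
      have h1 : ybar ^ q ^ e = 1 := congrArg Subtype.val he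
      have h2 : orderOf ybar ∣ q ^ e := orderOf_dvd_of_pow_eq_one h1
      have h3 : orderOf ybar ∣ Nat.card (G ⧸ F) := orderOf_dvd_natCard ybar
      have h4 : (q ^ e).Coprime (Nat.card (G ⧸ F)) :=
        Nat.Coprime.pow_left _ ((Nat.Prime.coprime_iff_not_dvd hq).mpr hpbar)
      have h5 : orderOf ybar = 1 := Nat.eq_one_of_dvd_coprimes h4 h2 h3
      rw [orderOf_eq_one_iff.mp h5, map_one]
    -- the main case
    let π : G →* G ⧸ F := QuotientGroup.mk' F
    let Y : Subgroup G := (pCore q (G ⧸ F)).comap π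
    have hYn : Y.Normal := Subgroup.Normal.comap inferInstance π
    have hYσ : ∀ y ∈ Y, σ y ∈ Y := by
      intro y hy
      have h1 : π (σ y) = barAut σ (π y) := rfl
      show π (σ y) ∈ pCore q (G ⧸ F)
      rw [h1]
      have h2 := (Subgroup.characteristic_iff_map_le.mp (pCore_char q (G ⧸ F))) (barAut σ)
      exact h2 ⟨π y, hy, rfl⟩
    have hFY : F ≤ Y := by
      intro f hf
      show π f ∈ pCore q (G ⧸ F)
      have : π f = 1 := (QuotientGroup.eq_one_iff f).mpr hf
      rw [this]
      exact one_mem _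
    have hYq : ∀ y ∈ Y, ∃ e, y ^ q ^ e ∈ F := by
      intro y hy
      have hpc : IsPGroup q (pCore q (G ⧸ F)) := pCore_isPGroup q
      obtain ⟨e, he⟩ := hpc ⟨π y, hy⟩
      refine ⟨e, ?_⟩
      have h1 : (π y) ^ q ^ e = 1 := congrArg Subtype.val he
      rw [← map_pow] at h1
      exact (QuotientGroup.eq_one_iff _).mp h1
    obtain ⟨Q, hQY, hQp, hQidx, hQσ⟩ := exists_sigma_sylow σ hcopσ Y hYσ q
    have hQpow : ∀ (i : ℕ), ∀ x ∈ Q, (σ ^ i) x ∈ Q := by
      intro i
      induction i with
      | zero => intro x hx; simpa using hx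
      | succ i ih =>
        intro x hx
        rw [pow_succ', MulAut.mul_apply]
        exact hQσ _ (ih x hx)
    have hzF : ∀ x ∈ Q, x⁻¹ * (σ ^ p ^ n) x ∈ F := by
      intro x hx
      refine mem_fitting_of_centOff hq hYn hYq ?_ ?_
      · exact Y.mul_mem (Y.inv_mem (hQY hx)) (hQY (hQpow _ x hx))
      · intro s hs hsq t ht
        by_cases hsp : s = p
        · subst hsp
          have hpc : IsPGroup s (pCore s G) := by
            haveI : Fact s.Prime := ⟨hs⟩
            exact pCore_isPGroup s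
          obtain ⟨e, he⟩ := hpc ⟨t, ht⟩
          have h1 : t ^ s ^ e = 1 := congrArg Subtype.val he
          have h2 : orderOf t ∣ s ^ e := orderOf_dvd_of_pow_eq_one h1
          have h3 : orderOf t ∣ Nat.card G := orderOf_dvd_natCard t
          have h4 : (s ^ e).Coprime (Nat.card G) :=
            Nat.Coprime.pow_left _ ((Nat.Prime.coprime_iff_not_dvd hs).mpr hpG)
          have h5 : orderOf t = 1 := Nat.eq_one_of_dvd_coprimes h4 h2 h3
          rw [orderOf_eq_one_iff.mp h5, one_mul, mul_one]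
        · haveI : Fact s.Prime := ⟨hs⟩
          exact app_G hp hp2 σ hσ hfpf hq hs (Ne.symm hqp) (Ne.symm hsp) (Ne.symm hsq)
            (pCore_char s G) (pCore_isPGroup s) hQp hQσ x hx t ht
    have hYle : Y ≤ Q ⊔ F := le_sup_of_sylow hq hFY hQY hQidx hYq
    obtain ⟨y, rfl⟩ := QuotientGroup.mk_surjective ybar
    have hyY : y ∈ Y := hybar
    have hy : y ∈ ((Q ⊔ F : Subgroup G) : Set G) := hYle hyY
    rw [Subgroup.mul_normal, Set.mem_mul] at hy
    obtain ⟨x, hx, f, hf, rfl⟩ := hy
    rw [hθ, barAut_pow_mk, QuotientGroup.eq]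
    have hfF : (σ ^ p ^ n) f ∈ F := by
      have := mem_fitting_of_apply (σ ^ p ^ n) hf
      exact this
    have e1 : (x * f)⁻¹ * (σ ^ p ^ n) (x * f) = f⁻¹ * (x⁻¹ * (σ ^ p ^ n) x) * (σ ^ p ^ n) f := by
      rw [map_mul]
      group
    have h7 := F.mul_mem (F.mul_mem (F.inv_mem hf) (hzF x hx)) hfF
    rw [← e1] at h7
    have h8 := F.inv_mem h7
    simpa only [mul_inv_rev, inv_inv] using h8
  intro x hx
  exact hle hx

/-- A chain of normal subgroups with nilpotent factors. -/
def FitChain (G : Type u) [Group G] (m : ℕ) : Prop :=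
  ∃ F : Fin (m + 1) → Subgroup G, F 0 = ⊥ ∧ F (Fin.last m) = ⊤ ∧ Monotone F ∧ (∀ i, (F i).Normal) ∧
    ∀ i : Fin m, ∃ k : ℕ, (F i.succ).lowerCentralSeries k ≤ F i.castSucc

omit [Finite G] in
theorem FitChain.lift {H : Type u} [Group H] (f : G →* H) (hf : Function.Surjective f)
    (hk : Group.IsNilpotent f.ker) {m : ℕ} (h : FitChain H m) : FitChain G (m + 1) := by
  obtain ⟨C, hC0, hCl, hCm, hCn, hCk⟩ := h
  refine ⟨Fin.cons ⊥ (fun i => (C i).comap f), ?_, ?_, ?_, ?_, ?_⟩
  · exact Fin.cons_zero _ _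
  · rw [← Fin.succ_last, Fin.cons_succ, hCl]
    exact Subgroup.comap_top f
  · intro i j hij
    induction i using Fin.cases with
    | zero =>
      rw [Fin.cons_zero]
      exact bot_le
    | succ i =>
      induction j using Fin.cases with
      | zero => exact absurd hij (by simp)
      | succ j =>
        rw [Fin.cons_succ, Fin.cons_succ]
        exact Subgroup.comap_mono (hCm (Fin.succ_le_succ_iff.mp hij))
  · intro i
    induction i using Fin.cases with
    | zero =>
      rw [Fin.cons_zero]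
      infer_instance
    | succ i =>
      rw [Fin.cons_succ]
      haveI := hCn i
      exact Subgroup.Normal.comap inferInstance f
  · intro i
    induction i using Fin.cases with
    | zero =>
      obtain ⟨k, hk'⟩ := (Subgroup.isNilpotent_iff_lowerCentralSeries _).mp hk
      refine ⟨k, ?_⟩
      rw [Fin.cons_succ, hC0, Fin.castSucc_zero, Fin.cons_zero]
      have : (⊥ : Subgroup H).comap f = f.ker := rfl
      rw [this, hk']
    | succ i =>
      obtain ⟨k, hk'⟩ := hCk i
      refine ⟨k, ?_⟩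
      rw [Fin.cons_succ, ← Fin.succ_castSucc, Fin.cons_succ]
      intro x hx
      show f x ∈ C i.castSucc
      apply hk'
      have h1 : f x ∈ ((C i.succ).comap f |>.lowerCentralSeries k).map f := ⟨x, hx, rfl⟩
      rw [Subgroup.map_lowerCentralSeries] at h1
      exact Subgroup.lowerCentralSeries_mono k (Subgroup.map_comap_le _ _) h1

/-- **The Shult-Gross theorem** for odd primes. -/
theorem fitChain_of_fpf {p : ℕ} (hp : p.Prime) (hp2 : p ≠ 2) :
    ∀ (n : ℕ) (G : Type u) [Group G] [Finite G], Group.IsSolvable G → ∀ σ : MulAut G, σ ^ p ^ n = 1 →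
      (∀ g : G, σ g = g → g = 1) → FitChain G n := by
  classical
  haveI : Fact p.Prime := ⟨hp⟩
  intro n
  induction n with
  | zero =>
    intro G _ _ hG σ hσ hfpf
    have hσ1 : σ = 1 := by simpa using hσ
    have hall : ∀ g : G, g = 1 := fun g => hfpf g (by rw [hσ1]; rfl)
    haveI : Subsingleton G := ⟨fun a b => by rw [hall a, hall b]⟩
    refine ⟨fun _ => ⊥, rfl, Subsingleton.elim _ _, fun _ _ _ => le_rfl, fun _ => inferInstance,
      fun i => i.elim0⟩
  | succ n ih =>
    intro G _ _ hG σ hσ hfpf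
    by_cases hσn : σ ^ p ^ n = 1
    · refine FitChain.lift (H := G) (MonoidHom.id G) Function.surjective_id ?_ (ih G hG σ hσn hfpf)
      have hbot : (MonoidHom.id G).ker = ⊥ := MonoidHom.ker_id
      rw [hbot]
      exact (Subgroup.isNilpotent_iff_lowerCentralSeries _).mpr ⟨0, rfl⟩
    · have hord : orderOf σ = p ^ (n + 1) := orderOf_eq_prime_pow hσn hσ
      have hbar := barAut_pow_eq_one hG hp hp2 σ hord hfpf
      have hsolv : Group.IsSolvable (G ⧸ fittingSubgroup G) := inferInstance
      have h1 := ih (G ⧸ fittingSubgroup G) hsolv (barAut σ) hbar (barAut_fpf σ hfpf)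
      refine FitChain.lift (QuotientGroup.mk' (fittingSubgroup G)) (QuotientGroup.mk'_surjective _) ?_ h1
      rw [QuotientGroup.ker_mk']
      exact fittingSubgroup_isNilpotent

end Cfsg.Agent.Lib.ShultGross
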